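import Mathlib
import Cfsg.Agent.Lib.BK.Hat
import Cfsg.Agent.Lib.BK.Equal

/-!
# Idempotents and `p`-regular elements

* `exists_idem_decomp`: a `p`-regular element is a combination of idempotents with local coefficients.
* `eq_zero_of_lin_prim`: a class function vanishing on the primitive idempotents with local coefficients vanishes at
  the `p`-regular elements.
* `IBrData`: the isomorphism classes of primitive idempotents below a block.
-/

set_option autoImplicit false
set_option linter.unusedSectionVars false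
set_option linter.style.haveILetI false

namespace Cfsg.Agent.Lib.IBr.Basic

open Cfsg MonoidAlgebra Module
open Cfsg.Agent.Lib.Blocks.Local Cfsg.Agent.Lib.Blocks.Central Cfsg.Agent.Lib.Blocks.Brauer
open Cfsg.Agent.Lib.BlockAlg Cfsg.Agent.Lib.Blk89.BlockPow
open Cfsg.Agent.Lib.BP.Fit Cfsg.Agent.Lib.BP.Corner Cfsg.Agent.Lib.BP.KS
open Cfsg.Agent.Lib.BK.Trc Cfsg.Agent.Lib.BK.Dual Cfsg.Agent.Lib.BK.Equal Cfsg.Agent.Lib.BK.Coef

universe u

variable {G : Type u} [Group G] [Fintype G] {M : Ideal AlgInt} {p : ℕ}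

section Decomp

/-- The idempotent of an eigenvalue of `c`. -/
noncomputable def eIdem (c : G) (η : ℂ) : GA G :=
  ((orderOf c : ℂ)⁻¹) • ∑ k ∈ Finset.range (orderOf c), (η⁻¹) ^ k • (single (c ^ k) 1 : GA G)

theorem single_mul_eIdem {c : G} {η : ℂ} (hη : η ^ orderOf c = 1) :
    (single c 1 : GA G) * eIdem c η = η • eIdem c η := by
  have hm : 0 < orderOf c := orderOf_pos c
  have hη0 : η ≠ 0 := by
    intro h
    rw [h, zero_pow hm.ne'] at hη
    exact zero_ne_one hη
  set f : ℕ → GA G := fun k => (η⁻¹) ^ k • (single (c ^ k) 1 : GA G) with hf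
  have hs : ∀ k, (single c 1 : GA G) * f k = η • f (k + 1) := by
    intro k
    have e : η * (η⁻¹) ^ (k + 1) = (η⁻¹) ^ k := by
      rw [pow_succ]
      field_simp
    simp only [hf]
    rw [mul_smul_comm, single_mul_single, one_mul, smul_smul, e, pow_succ' c]
  have h1 := Finset.sum_range_succ f (orderOf c)
  have h2 := Finset.sum_range_succ' f (orderOf c)
  have h3 : f (orderOf c) = f 0 := by
    simp only [hf, pow_zero, one_smul, pow_orderOf_eq_one, inv_pow, hη, inv_one]
  rw [h1, h3] at h2
  have h4 := add_right_cancel h2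
  have e0 : eIdem c η = ((orderOf c : ℂ)⁻¹) • ∑ k ∈ Finset.range (orderOf c), f k := rfl
  rw [e0, mul_smul_comm, smul_comm, Finset.mul_sum]
  congr 1
  rw [Finset.sum_congr rfl fun k _ => hs k, ← Finset.smul_sum, h4]

theorem single_pow_mul_eIdem {c : G} {η : ℂ} (hη : η ^ orderOf c = 1) (k : ℕ) :
    (single (c ^ k) 1 : GA G) * eIdem c η = (η ^ k) • eIdem c η := by
  induction k with
  | zero =>
    have e : (single ((1 : G)) (1 : ℂ) : GA G) = 1 := rfl
    rw [pow_zero, pow_zero, e, one_mul, one_smul]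
  | succ k ih =>
    have e : (single (c ^ (k + 1)) 1 : GA G) = single c 1 * single (c ^ k) 1 := by
      rw [single_mul_single, one_mul, pow_succ']
    rw [e, mul_assoc, ih, mul_smul_comm, single_mul_eIdem hη, smul_smul, pow_succ]

theorem eIdem_mul_self {c : G} {η : ℂ} (hη : η ^ orderOf c = 1) : eIdem c η * eIdem c η = eIdem c η := by
  have hm : 0 < orderOf c := orderOf_pos c
  have hη0 : η ≠ 0 := by
    intro h
    rw [h, zero_pow hm.ne'] at hη
    exact zero_ne_one hη
  have hm0 : (orderOf c : ℂ) ≠ 0 := Nat.cast_ne_zero.mpr hm.ne'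
  have e0 : eIdem c η * eIdem c η = ((orderOf c : ℂ)⁻¹) • ∑ k ∈ Finset.range (orderOf c),
      (((η⁻¹) ^ k • (single (c ^ k) 1 : GA G)) * eIdem c η) := by
    rw [← Finset.sum_mul, ← smul_mul_assoc]
    rfl
  rw [e0]
  have h1 : ∀ k ∈ Finset.range (orderOf c), ((η⁻¹) ^ k • (single (c ^ k) 1 : GA G)) * eIdem c η = eIdem c η := by
    intro k _
    rw [smul_mul_assoc, single_pow_mul_eIdem hη, smul_smul, ← mul_pow, inv_mul_cancel₀ hη0, one_pow, one_smul]
  rw [Finset.sum_congr rfl h1, Finset.sum_const, Finset.card_range, ← Nat.cast_smul_eq_nsmul ℂ, smul_smul,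
    inv_mul_cancel₀ hm0, one_smul]

variable [hMp : M.IsPrime]

theorem rc_eIdem (hM : IsPModular p M) {c : G} (hc : ¬ p ∣ orderOf c) {η : ℂ} (hη : η ^ orderOf c = 1) :
    Rc M (eIdem c η) := by
  have hm : 0 < orderOf c := orderOf_pos c
  have hη' : MemLocalRing M (η⁻¹) := by
    refine memLocalRing_of_isIntegral ?_
    refine ⟨Polynomial.X ^ orderOf c - 1, Polynomial.monic_X_pow_sub_C _ hm.ne', ?_⟩
    rw [Polynomial.eval₂_sub, Polynomial.eval₂_pow, Polynomial.eval₂_X, Polynomial.eval₂_one, inv_pow, hη,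
      inv_one, sub_self]
  refine Rc.smul (memLocalRing_natCast_inv hM hc) (Rc.sum _ _ fun k _ => ?_)
  refine Rc.smul ?_ (Rc.single _ memLocalRing_one)
  clear hη
  rename_i hk
  clear hk
  induction k with
  | zero => simpa using memLocalRing_one
  | succ k ih => 
    rw [pow_succ]
    exact memLocalRing_mul ih hη'

/-- A `p`-regular element is a combination of idempotents with local coefficients. -/
theorem exists_idem_decomp (hM : IsPModular p M) {c : G} (hc : ¬ p ∣ orderOf c) :
    ∃ (n : ℕ) (η : ℕ → ℂ) (e : ℕ → GA G), (∀ j, Rc M (e j)) ∧ (∀ j, e j * e j = e j) ∧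
      (single c 1 : GA G) = ∑ j ∈ Finset.range n, η j • e j := by
  have hm : 0 < orderOf c := orderOf_pos c
  have hm0 : (orderOf c : ℂ) ≠ 0 := Nat.cast_ne_zero.mpr hm.ne'
  have hζ := Complex.isPrimitiveRoot_exp (orderOf c) hm.ne'
  set ζ := Complex.exp (2 * Real.pi * Complex.I / (orderOf c : ℂ)) with hζdef
  have hpow : ∀ j : ℕ, (ζ ^ j) ^ orderOf c = 1 := by
    intro j
    rw [← pow_mul, mul_comm, pow_mul, hζ.pow_eq_one, one_pow]
  refine ⟨orderOf c, fun j => ζ ^ j, fun j => eIdem c (ζ ^ j), fun j => rc_eIdem hM hc (hpow j),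
    fun j => eIdem_mul_self (hpow j), ?_⟩
  have hsum : ∑ j ∈ Finset.range (orderOf c), eIdem c (ζ ^ j) = 1 := by
    simp only [eIdem]
    rw [← Finset.smul_sum, Finset.sum_comm]
    simp only [← Finset.sum_smul]
    rw [Finset.sum_eq_single 0]
    · simp only [pow_zero, Finset.sum_const, Finset.card_range, nsmul_eq_mul, mul_one]
      rw [smul_smul, inv_mul_cancel₀ hm0, one_smul]
      rfl
    · intro k hk hk0
      have hk' : k < orderOf c := Finset.mem_range.mp hk
      set t : ℂ := (ζ⁻¹) ^ k with ht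
      have e1 : ∀ j, ((ζ ^ j)⁻¹) ^ k = t ^ j := by
        intro j
        rw [ht, inv_pow, inv_pow, inv_pow, ← pow_mul, ← pow_mul, mul_comm]
      simp only [e1]
      have ht1 : t ≠ 1 := by
        intro h
        rw [ht, inv_pow, inv_eq_one] at h
        exact hk0 (Nat.eq_zero_of_dvd_of_lt (hζ.dvd_of_pow_eq_one k h) hk')
      have ht2 : t ^ orderOf c = 1 := by
        rw [ht, inv_pow, inv_pow, ← pow_mul, mul_comm, pow_mul, hζ.pow_eq_one, one_pow, inv_one]
      rw [geom_sum_eq ht1, ht2, sub_self, zero_div, zero_smul]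
    · intro h
      exact absurd (Finset.mem_range.mpr hm) h
  conv_lhs => rw [← mul_one (single c 1 : GA G), ← hsum, Finset.mul_sum]
  exact Finset.sum_congr rfl fun j _ => single_mul_eIdem (hpow j)

/-- A function whose linear extension vanishes on idempotents with local coefficients vanishes at the `p`-regular
elements. -/
theorem eq_zero_of_lin_idem (hM : IsPModular p M) {τ : G → ℂ}
    (h : ∀ y : GA G, Rc M y → y * y = y → lin τ y = 0) {c : G} (hc : ¬ p ∣ orderOf c) : τ c = 0 := by
  obtain ⟨n, η, e, h1, h2, h3⟩ := exists_idem_decomp (M := M) hM hc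
  have h4 := lin_single τ c 1
  rw [one_mul, h3, map_sum] at h4
  rw [← h4]
  refine Finset.sum_eq_zero fun j _ => ?_
  rw [map_smul, h (e j) (h1 j) (h2 j), smul_zero]

/-- **Separation.**  A function whose linear extension vanishes on the primitive idempotents with local
coefficients vanishes at the `p`-regular elements. -/
theorem eq_zero_of_lin_prim (hM : IsPModular p M) {τ : G → ℂ}
    (h : ∀ j, IsPrim (RcS M G) j → lin τ j = 0) {c : G} (hc : ¬ p ∣ orderOf c) : τ c = 0 := by
  refine eq_zero_of_lin_idem (M := M) hM (fun y hy hyy => ?_) hc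
  obtain ⟨L, h1, -, h3⟩ := exists_prim_decomp (isOrder_rcS (M := M) (G := G)) (x := y) hy hyy
  rw [← h3, map_sum]
  exact Finset.sum_eq_zero fun l hl => h l (h1 l hl)

end Decomp

section Data

variable [hMp : M.IsPrime]

theorem lin_sum_mul {ι : Type*} (s : Finset ι) (a : ι → ℂ) (f : ι → G → ℂ) (x : GA G) :
    lin (fun g => ∑ i ∈ s, a i * f i g) x = ∑ i ∈ s, a i * lin (f i) x := by
  simp only [lin_apply, Finset.mul_sum]
  rw [Finset.sum_comm]
  exact Finset.sum_congr rfl fun i _ => Finset.sum_congr rfl fun g _ => by ring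

theorem exists_reps (L : Finset (GA G)) (hL : ∀ l ∈ L, IsPrim (RcS M G) l) :
    ∃ Q ⊆ L, (∀ i ∈ Q, ∀ i' ∈ Q, Iso (RcS M G) i i' → i = i') ∧ ∀ l ∈ L, ∃ i ∈ Q, Iso (RcS M G) l i := by
  classical
  induction L using Finset.induction_on with
  | empty => exact ⟨∅, by simp, by simp, by simp⟩
  | insert a L' _ ih =>
    obtain ⟨Q, h1, h2, h3⟩ := ih fun l hl => hL l (Finset.mem_insert_of_mem hl)
    have ha := hL a (Finset.mem_insert_self _ _)
    by_cases hex : ∃ i ∈ Q, Iso (RcS M G) a i
    · refine ⟨Q, h1.trans (Finset.subset_insert _ _), h2, fun l hl => ?_⟩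
      rcases Finset.mem_insert.mp hl with rfl | hl
      · exact hex
      · exact h3 l hl
    · refine ⟨insert a Q, Finset.insert_subset_insert _ h1, ?_, fun l hl => ?_⟩
      · intro i hi i' hi' hii
        rcases Finset.mem_insert.mp hi with e | hi₂
        · subst e
          rcases Finset.mem_insert.mp hi' with e' | hi₃
          · exact e'.symm
          · exact absurd ⟨i', hi₃, hii⟩ hex
        · rcases Finset.mem_insert.mp hi' with e' | hi₃
          · subst e'
            exact absurd ⟨i, hi₂, hii.symm⟩ hex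
          · exact h2 i hi₂ i' hi₃ hii
      · rcases Finset.mem_insert.mp hl with rfl | hl
        · exact ⟨l, Finset.mem_insert_self _ _, Iso.refl ha.mem ha.idem⟩
        · obtain ⟨i, hi, hli⟩ := h3 l hl
          exact ⟨i, Finset.mem_insert_of_mem hi, hli⟩

/-- A primitive idempotent below a sum of a primitive decomposition is isomorphic to a member. -/
theorem exists_iso_of_isDec {x : GA G} {L : Finset (GA G)} (hL : IsDec (RcS M G) x L) {i : GA G}
    (hi : IsPrim (RcS M G) i) (hix : i * x * i = i) : ∃ l ∈ L, Iso (RcS M G) i l := by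
  classical
  have hS := isOrder_rcS (M := M) (G := G)
  have hprim := hL.prim
  have hsum : ∑ l ∈ L, (i * l) * (l * i) = i := by
    have e : ∀ l ∈ L, (i * l) * (l * i) = i * l * i := by
      intro l hl
      calc (i * l) * (l * i) = i * (l * l) * i := by noncomm_ring
        _ = _ := by rw [(hprim l hl).idem]
    rw [Finset.sum_congr rfl e, ← Finset.sum_mul, ← Finset.mul_sum, hL.sum, hix]
  obtain ⟨l, hl, hn⟩ := exists_not_nil_of_sum hS hi L (fun l => (i * l) * (l * i))
    (fun l hl => (RcS M G).mul_mem ((RcS M G).mul_mem hi.mem (hprim l hl).mem)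
      ((RcS M G).mul_mem (hprim l hl).mem hi.mem))
    (fun l _ => ⟨by
      calc i * (i * l * (l * i)) = (i * i) * l * (l * i) := by noncomm_ring
        _ = _ := by rw [hi.idem], by
      calc i * l * (l * i) * i = i * l * (l * (i * i)) := by noncomm_ring
        _ = _ := by rw [hi.idem]⟩) hsum
  refine ⟨l, hl, iso_of_not_nil hS hi (hprim l hl) (a := i * l) (b := l * i)
    ((RcS M G).mul_mem hi.mem (hprim l hl).mem) ?_ ?_ ((RcS M G).mul_mem (hprim l hl).mem hi.mem) ?_ ?_ hn⟩
  · rw [← mul_assoc, hi.idem]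
  · rw [mul_assoc, (hprim l hl).idem]
  · rw [← mul_assoc, (hprim l hl).idem]
  · rw [mul_assoc, hi.idem]

variable [Fintype (IrrCharacter G)]

/-- The data of the isomorphism classes of primitive idempotents below `idem B`: these are the irreducible Brauer
characters `β i` and the projective indecomposable characters of the block. -/
structure IBrData (M : Ideal AlgInt) [M.IsPrime] (B : Set (IrrCharacter G)) (Q : Finset (GA G)) (β : GA G → G → ℂ)
    (n : GA G → ℕ) : Prop where
  prim : ∀ i ∈ Q, IsPrim (RcS M G) i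
  below : ∀ i ∈ Q, i * ((idem B : Subalgebra.center ℂ (GA G)) : GA G) = i
  inj : ∀ i ∈ Q, ∀ i' ∈ Q, Iso (RcS M G) i i' → i = i'
  surj : ∀ j, IsPrim (RcS M G) j → j * ((idem B : Subalgebra.center ℂ (GA G)) : GA G) = j →
    ∃ i ∈ Q, Iso (RcS M G) j i
  cls : ∀ i ∈ Q, IsClassFunction G (β i)
  dual : ∀ i ∈ Q, ∀ j, IsPrim (RcS M G) j →
    lin (β i) j = @ite _ (Iso (RcS M G) j i) (Classical.propDecidable _) 1 0
  pos : ∀ i ∈ Q, 0 < n i
  sum : ∀ τ : G → ℂ, IsClassFunction G τ →
    lin τ ((idem B : Subalgebra.center ℂ (GA G)) : GA G) = ∑ i ∈ Q, (n i : ℂ) * lin τ i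

variable {B : Set (IrrCharacter G)}

theorem idem_rc (hB : idem B ∈ localCenter M G) : Rc M ((idem B : Subalgebra.center ℂ (GA G)) : GA G) :=
  Rc.of_localCenter hB

theorem idem_idem (B : Set (IrrCharacter G)) :
    ((idem B : Subalgebra.center ℂ (GA G)) : GA G) * ((idem B : Subalgebra.center ℂ (GA G)) : GA G) =
      ((idem B : Subalgebra.center ℂ (GA G)) : GA G) :=
  congrArg Subtype.val (Cfsg.Agent.Lib.Blocks.Weak.idem_mul_self B)

/-- **Existence of the data.** -/
theorem exists_ibrData (hB : idem B ∈ localCenter M G) : ∃ (Q : Finset (GA G)) (β : GA G → G → ℂ) (n : GA G → ℕ),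
    IBrData M B Q β n := by
  classical
  have hS := isOrder_rcS (M := M) (G := G)
  obtain ⟨L, h1, h2, h3⟩ := exists_prim_decomp hS (x := ((idem B : Subalgebra.center ℂ (GA G)) : GA G))
    (idem_rc hB) (idem_idem B)
  have hL : IsDec (RcS M G) ((idem B : Subalgebra.center ℂ (GA G)) : GA G) L := ⟨h1, h2, h3⟩
  obtain ⟨Q, hQL, hinj, hcov⟩ := exists_reps (M := M) L h1
  have hbeta : ∀ i : GA G, ∃ f : G → ℂ, i ∈ Q → IsClassFunction G f ∧
      ∀ j, IsPrim (RcS M G) j → lin f j = @ite _ (Iso (RcS M G) j i) (Classical.propDecidable _) 1 0 := by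
    intro i
    by_cases hi : i ∈ Q
    · obtain ⟨f, hf1, hf2⟩ := exists_beta (h1 i (hQL hi))
      refine ⟨f, fun _ => ⟨hf1, fun j hj => ?_⟩⟩
      rw [hf2 j hj]
    · exact ⟨0, fun h => absurd h hi⟩
  choose β hβ using hbeta
  refine ⟨Q, β, fun i => (L.filter fun l => Iso (RcS M G) l i).card, ?_⟩
  refine ⟨fun i hi => h1 i (hQL hi), fun i hi => hL.mul_right (hQL hi), hinj, ?_, fun i hi => (hβ i hi).1,
    fun i hi => (hβ i hi).2, ?_, ?_⟩
  · intro j hj hjb
    have hjb' : j * ((idem B : Subalgebra.center ℂ (GA G)) : GA G) * j = j := by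
      rw [hjb, hj.idem]
    obtain ⟨l, hl, hjl⟩ := exists_iso_of_isDec hL hj hjb'
    obtain ⟨i, hi, hli⟩ := hcov l hl
    exact ⟨i, hi, hjl.trans hli⟩
  · intro i hi
    refine Finset.card_pos.mpr ⟨i, Finset.mem_filter.mpr ⟨hQL hi, ?_⟩⟩
    exact Iso.refl (h1 i (hQL hi)).mem (h1 i (hQL hi)).idem
  · intro τ hτ
    rw [← h3, map_sum]
    have e1 : ∀ l ∈ L, lin τ l = ∑ i ∈ Q, if Iso (RcS M G) l i then lin τ i else 0 := by
      intro l hl
      obtain ⟨i₀, hi₀, hli⟩ := hcov l hl
      rw [Finset.sum_eq_single i₀]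
      · rw [if_pos hli]
        exact lin_eq_of_iso hτ hli
      · intro i hi hne
        rw [if_neg]
        intro hc
        exact hne (hinj i hi i₀ hi₀ (hc.symm.trans hli))
      · intro h
        exact absurd hi₀ h
    rw [Finset.sum_congr rfl e1, Finset.sum_comm]
    refine Finset.sum_congr rfl fun i _ => ?_
    rw [Finset.card_filter]
    push_cast
    rw [Finset.sum_mul]
    refine Finset.sum_congr rfl fun l _ => ?_
    split_ifs <;> simp

/-- A primitive idempotent is below or orthogonal to a central idempotent. -/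
theorem prim_dichotomy (hB : idem B ∈ localCenter M G) {j : GA G} (hj : IsPrim (RcS M G) j) :
    j * ((idem B : Subalgebra.center ℂ (GA G)) : GA G) = j ∨
      j * ((idem B : Subalgebra.center ℂ (GA G)) : GA G) = 0 := by
  set E : GA G := ((idem B : Subalgebra.center ℂ (GA G)) : GA G) with hE
  have hc : ∀ x : GA G, x * E = E * x := fun x =>
    (isCentral_iff_comm _).mp (isCentral_of_mem (idem B)) x
  have hEE : E * E = E := idem_idem B
  have hR : Rc M E := idem_rc hB
  have hz : j * E ∈ RcS M G := (RcS M G).mul_mem hj.mem hR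
  have h1 : (j * E) * (j * E) = j * E := by
    calc (j * E) * (j * E) = j * (E * j) * E := by noncomm_ring
      _ = j * (j * E) * E := by rw [hc j]
      _ = (j * j) * (E * E) := by noncomm_ring
      _ = j * E := by rw [hj.idem, hEE]
  have h2 : j * (j * E) = j * E := by rw [← mul_assoc, hj.idem]
  have h3 : (j * E) * j = j * E := by
    rw [mul_assoc, ← hc j, ← mul_assoc, hj.idem]
  rcases hj.prim _ hz h1 h2 h3 with h | h
  · exact Or.inr h
  · exact Or.inl h

/-- The value at a character outside of `B` of an idempotent below `idem B`. -/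
theorem lin_eq_zero_of_notMem {χ : IrrCharacter G} (hχ : χ ∉ B) {y : GA G}
    (hy : y * ((idem B : Subalgebra.center ℂ (GA G)) : GA G) = y) : lin (χ : G → ℂ) y = 0 := by
  classical
  have hc := (isCentral_iff_comm _).mp (isCentral_of_mem (idem B)) y
  rw [hy] at hc
  rw [hc, lin_idem_mul, if_neg hχ]

theorem lin_eq_zero_of_orth {χ : IrrCharacter G} (hχ : χ ∈ B) {y : GA G}
    (hy : y * ((idem B : Subalgebra.center ℂ (GA G)) : GA G) = 0) : lin (χ : G → ℂ) y = 0 := by
  classical
  have hc := (isCentral_iff_comm _).mp (isCentral_of_mem (idem B)) y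
  rw [hy] at hc
  have h1 := lin_idem_mul B χ y
  rw [← hc, if_pos hχ, map_zero] at h1
  exact h1.symm

theorem lin_idem_of_mem {χ : IrrCharacter G} (hχ : χ ∈ B) :
    lin (χ : G → ℂ) ((idem B : Subalgebra.center ℂ (GA G)) : GA G) = (χ : G → ℂ) 1 := by
  classical
  have h1 := lin_idem_mul B χ 1
  rw [mul_one, if_pos hχ] at h1
  rw [h1]
  have h2 := lin_single (χ : G → ℂ) 1 1
  rw [one_mul] at h2
  exact h2

theorem mul_idem_of_iso {E j i : GA G} (hc : ∀ x : GA G, x * E = E * x) (h : Iso (RcS M G) j i) (hi : i * E = i) :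
    j * E = j := by
  obtain ⟨u, -, v, -, h1, h2, h3, h4, h5, h6⟩ := h
  have hu : u * E = u := by
    calc u * E = (u * i) * E := by rw [h2]
      _ = u * (i * E) := by rw [mul_assoc]
      _ = u := by rw [hi, h2]
  rw [← h5, mul_assoc, hc v, ← mul_assoc, hu]

variable {Q : Finset (GA G)} {β : GA G → G → ℂ} {n : GA G → ℕ}

open Classical in
theorem IBrData.lin_beta_self (h : IBrData M B Q β n) {i i' : GA G} (hi : i ∈ Q) (hi' : i' ∈ Q) :
    lin (β i) i' = if i' = i then 1 else 0 := by
  rw [h.dual i hi i' (h.prim i' hi')]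
  by_cases e : i' = i
  · subst e
    rw [if_pos rfl, if_pos (Iso.refl (h.prim i' hi).mem (h.prim i' hi).idem)]
  · rw [if_neg e, if_neg fun hc => e (h.inj _ hi' _ hi hc)]

/-- The multiplicity of `i` in the decomposition of `idem B`. -/
theorem IBrData.lin_beta_idem (h : IBrData M B Q β n) {i : GA G} (hi : i ∈ Q) :
    lin (β i) ((idem B : Subalgebra.center ℂ (GA G)) : GA G) = n i := by
  classical
  rw [h.sum _ (h.cls i hi), Finset.sum_eq_single i]
  · rw [h.lin_beta_self hi hi, if_pos rfl, mul_one]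
  · intro i' hi' hne
    rw [h.lin_beta_self hi hi', if_neg hne, mul_zero]
  · intro hc
    exact absurd hi hc

/-- The expansion of the values of `f` in terms of the Brauer characters: `f` is a class function which on primitive
idempotents outside of `B` vanishes. -/
theorem IBrData.eq_sum (h : IBrData M B Q β n) (hM : IsPModular p M) (hB : idem B ∈ localCenter M G) {f : G → ℂ}
    (hf : IsClassFunction G f)
    (h0 : ∀ y, IsPrim (RcS M G) y → y * ((idem B : Subalgebra.center ℂ (GA G)) : GA G) = 0 → lin f y = 0)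
    {c : G} (hc : ¬ p ∣ orderOf c) : f c = ∑ i ∈ Q, lin f i * β i c := by
  classical
  rw [← sub_eq_zero]
  set E : GA G := ((idem B : Subalgebra.center ℂ (GA G)) : GA G) with hE
  have hcen : ∀ x : GA G, x * E = E * x := fun x =>
    (isCentral_iff_comm _).mp (isCentral_of_mem (idem B)) x
  refine eq_zero_of_lin_prim (τ := fun g => f g - ∑ i ∈ Q, lin f i * β i g) hM (fun j hj => ?_) hc
  have e1 : lin (fun g => f g - ∑ i ∈ Q, lin f i * β i g) j = lin f j - lin (fun g => ∑ i ∈ Q, lin f i * β i g) j := by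
    simp only [lin_apply, mul_sub, Finset.sum_sub_distrib]
  rw [e1, lin_sum_mul, sub_eq_zero]
  have e2 : ∀ i ∈ Q, lin f i * lin (β i) j = lin f i * @ite _ (Iso (RcS M G) j i) (Classical.propDecidable _) 1 0 :=
    fun i hi => by rw [h.dual i hi j hj]
  rw [Finset.sum_congr rfl e2]
  rcases prim_dichotomy hB hj with hjb | hjb
  · obtain ⟨i₀, hi₀, hji⟩ := h.surj j hj hjb
    rw [Finset.sum_eq_single i₀]
    · rw [if_pos hji, mul_one]
      exact lin_eq_of_iso hf hji
    · intro i hi hne
      rw [if_neg, mul_zero]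
      intro hc
      exact hne (h.inj _ hi _ hi₀ (hc.symm.trans hji))
    · intro hc
      exact absurd hi₀ hc
  · rw [h0 j hj hjb]
    symm
    refine Finset.sum_eq_zero fun i hi => ?_
    rw [if_neg, mul_zero]
    intro hc
    have := mul_idem_of_iso hcen hc (h.below i hi)
    rw [hjb] at this
    exact hj.ne this.symm

theorem isClassFunction_irr (χ : IrrCharacter G) : IsClassFunction G (χ : G → ℂ) :=
  Cfsg.Agent.Lib.Char.Basic.isClassFunction_of_isIrrCharacter χ.2

/-- **The decomposition of a character on `p`-regular elements.** -/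
theorem IBrData.irr_eq_sum (h : IBrData M B Q β n) (hM : IsPModular p M) (hB : idem B ∈ localCenter M G) {χ : IrrCharacter G}
    (hχ : χ ∈ B) {c : G} (hc : ¬ p ∣ orderOf c) : (χ : G → ℂ) c = ∑ i ∈ Q, lin (χ : G → ℂ) i * β i c :=
  h.eq_sum hM hB (isClassFunction_irr χ) (fun _ _ hy => lin_eq_zero_of_orth hχ hy) hc

/-- The rank of a block is at most the number of classes of primitive idempotents. -/
theorem IBrData.blockRank_le (h : IBrData M B Q β n) (hM : IsPModular p M) (hB : idem B ∈ localCenter M G) :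
    blockRank p B ≤ Q.card := by
  classical
  have h1 : Submodule.span ℂ ((fun χ : IrrCharacter G => pRegularPart p (χ : G → ℂ)) '' B) ≤
      Submodule.span ℂ (((Q.image fun i => pRegularPart p (β i)) : Finset (G → ℂ)) : Set (G → ℂ)) := by
    refine Submodule.span_le.mpr ?_
    rintro _ ⟨χ, hχ, rfl⟩
    have e : pRegularPart p (χ : G → ℂ) = ∑ i ∈ Q, lin (χ : G → ℂ) i • pRegularPart p (β i) := by
      funext c
      rw [Finset.sum_apply]
      simp only [Pi.smul_apply, smul_eq_mul, Cfsg.Agent.Lib.BlockH.Regular.pRegularPart_apply]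
      by_cases hc : IsPRegular p c
      · rw [if_pos hc, h.irr_eq_sum hM hB hχ hc]
        exact Finset.sum_congr rfl fun i _ => by rw [if_pos hc]
      · rw [if_neg hc]
        symm
        exact Finset.sum_eq_zero fun i _ => by rw [if_neg hc, mul_zero]
    change pRegularPart p (χ : G → ℂ) ∈ _
    rw [e]
    refine Submodule.sum_mem _ fun i hi => Submodule.smul_mem _ _ (Submodule.subset_span ?_)
    exact Finset.mem_coe.mpr (Finset.mem_image_of_mem _ hi)
  refine (Submodule.finrank_mono h1).trans ?_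
  exact (finrank_span_finset_le_card _).trans Finset.card_image_le

end Data

end Cfsg.Agent.Lib.IBr.Basic
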