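import Mathlib
import Cfsg.Agent.Lib.IBr.Basic
import Cfsg.Agent.Lib.Contrib.Proj
import Cfsg.Agent.Lib.Blocks.Inducing

/-!
# The sum of the squares of the degrees of a block

`∑_{χ ∈ B} χ(1)² = ∑_i n_i Φ_i(1)`, `Φ_i(1) = p ^ a W_i`, and the `p`-part of the sum.
-/

set_option autoImplicit false
set_option linter.unusedSectionVars false
set_option linter.style.haveILetI false

namespace Cfsg.Agent.Lib.IBr.SqSum

open Cfsg MonoidAlgebra Module
open Cfsg.Agent.Lib.Blocks.Local Cfsg.Agent.Lib.Blocks.Central Cfsg.Agent.Lib.Blocks.Brauer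
open Cfsg.Agent.Lib.BlockAlg Cfsg.Agent.Lib.Blk89.BlockPow
open Cfsg.Agent.Lib.BP.Fit Cfsg.Agent.Lib.BP.Corner Cfsg.Agent.Lib.BP.KS
open Cfsg.Agent.Lib.BK.Trc Cfsg.Agent.Lib.BK.Dual Cfsg.Agent.Lib.BK.Equal Cfsg.Agent.Lib.BK.Coef
open Cfsg.Agent.Lib.BK.Hat Cfsg.Agent.Lib.IBr.Basic Cfsg.Agent.Lib.BlockH.Regular Cfsg.Agent.Lib.Char.Basic
open Cfsg.Agent.Lib.BP.StarDefs Cfsg.Agent.Lib.Char.GenLattice Cfsg.Agent.Lib.Char.Ortho
open scoped ComplexConjugate

universe u

variable {G : Type u} [Group G] [Fintype G] {M : Ideal AlgInt} {p : ℕ} [Fintype (IrrCharacter G)]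
variable {B : Set (IrrCharacter G)} {Q : Finset (GA G)} {β : GA G → G → ℂ} {n : GA G → ℕ}

theorem deg_eq (χ : IrrCharacter G) : (χ : G → ℂ) 1 = (charDegree (χ : G → ℂ) : ℂ) :=
  Cfsg.Agent.Lib.Blocks.Heights.irr_one_eq χ

theorem memLocal_irr [M.IsPrime] (χ : IrrCharacter G) (g : G) : MemLocalRing M ((χ : G → ℂ) g) :=
  memLocalRing_of_isIntegral (Cfsg.Agent.Lib.BlockP.Stable.isIntegral_irr χ g)

/-- The degree of a Brauer character is divisible by the greatest common divisor of the degrees. -/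
theorem IBrData.dvd_n [hMp : M.IsPrime] [Fact p.Prime] (h : IBrData M B Q β n) (hM : IsPModular p M) (hB : IsPBlock M B) {g : ℕ}
    (hg : ∀ χ ∈ B, g ∣ charDegree (χ : G → ℂ)) {i : GA G} (hi : i ∈ Q) : g ∣ n i := by
  classical
  have h1 := h.lin_beta_idem hi
  rw [← lin_hat hM (h.cls i hi) (idem_idem B) (idem_rc (idem_mem_localCenter hB)), lin_idem_eq_sum] at h1
  have hco := coef_hat (p := p) hM (h.cls i hi) (fun y hy hyy => exists_nat_lin (h.dual i hi) hy hyy)
  have hz : ∀ χ : IrrCharacter G, ∃ a : ℤ, (a : ℂ) = classInner (hat p (β i)) (χ : G → ℂ) := fun χ =>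
    hco χ χ.2
  choose a ha using hz
  have h2 : ((n i : ℤ) : ℂ) = ((∑ χ : IrrCharacter G, if χ ∈ B then (charDegree (χ : G → ℂ) : ℤ) * a χ else 0 : ℤ) : ℂ) := by
    rw [Int.cast_natCast, ← h1]
    push_cast
    refine Finset.sum_congr rfl fun χ _ => ?_
    split_ifs
    · rw [ha, deg_eq]
    · rfl
  have h3 := Int.cast_injective h2
  have h4 : (g : ℤ) ∣ (n i : ℤ) := by
    rw [h3]
    refine Finset.dvd_sum fun χ _ => ?_
    split_ifs with hχ
    · exact Dvd.dvd.mul_right (Int.natCast_dvd_natCast.mpr (hg χ hχ)) _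
    · exact dvd_zero _
  exact Int.natCast_dvd_natCast.mp h4

open Classical in
/-- The sum of the squares of the degrees. -/
theorem IBrData.sum_sq [hMp : M.IsPrime] (h : IBrData M B Q β n) :
    ∑ χ : IrrCharacter G, (if χ ∈ B then (χ : G → ℂ) 1 * (χ : G → ℂ) 1 else 0) =
      ∑ i ∈ Q, (n i : ℂ) * ∑ χ : IrrCharacter G, if χ ∈ B then (χ : G → ℂ) 1 * lin (χ : G → ℂ) i else 0 := by
  have hτ : IsClassFunction G (fun g => ∑ χ ∈ (Finset.univ : Finset (IrrCharacter G)),
      (if χ ∈ B then (χ : G → ℂ) 1 else 0) * (χ : G → ℂ) g) := by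
    intro g x
    simp only
    refine Finset.sum_congr rfl fun χ _ => ?_
    rw [isClassFunction_irr χ]
  have h1 := h.sum _ hτ
  rw [lin_sum_mul] at h1
  have e1 : ∀ χ ∈ (Finset.univ : Finset (IrrCharacter G)), (if χ ∈ B then (χ : G → ℂ) 1 else 0) *
      lin (χ : G → ℂ) ((idem B : Subalgebra.center ℂ (GA G)) : GA G) =
      if χ ∈ B then (χ : G → ℂ) 1 * (χ : G → ℂ) 1 else 0 := by
    intro χ _
    split_ifs with hχ
    · rw [lin_idem_of_mem hχ]
    · rw [zero_mul]
  rw [Finset.sum_congr rfl e1] at h1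
  rw [h1]
  refine Finset.sum_congr rfl fun i _ => ?_
  rw [lin_sum_mul]
  congr 1
  refine Finset.sum_congr rfl fun χ _ => ?_
  split_ifs <;> simp

section Sylow

variable (P : Subgroup G) [Fintype P]

/-- The multiplicity of the trivial character in the restriction to `P`. -/
noncomputable def XX (χ : G → ℂ) : ℂ := (Nat.card P : ℂ)⁻¹ * ∑ y : P, χ y

theorem exists_nat_XX {χ : G → ℂ} (hχ : IsCharacter G χ) : ∃ m : ℕ, XX P χ = m := by
  obtain ⟨m, hm⟩ := Cfsg.Agent.Lib.Char.Ortho.exists_nat_classInner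
    (isCharacter_restrict P hχ)
    (Cfsg.Agent.Lib.CharDeep.LinearChar.isCharacter_of_hom (1 : P →* ℂˣ))
  refine ⟨m, ?_⟩
  rw [← hm, XX, Cfsg.Agent.Lib.Char.Ortho.classInner_def]
  congr 1
  refine Fintype.sum_congr _ _ fun y => ?_
  simp

theorem sum_irr_mul_conj_eq_zero {g c : G} (h : ¬ IsConj g c) :
    ∑ χ : IrrCharacter G, (χ : G → ℂ) g * conj ((χ : G → ℂ) c) = 0 := by
  rw [Cfsg.Agent.Lib.Char.Complete.sum_irr_mul_conj, if_neg h]

theorem sum_irr_one_conj : ∑ χ : IrrCharacter G, (χ : G → ℂ) 1 * conj ((χ : G → ℂ) 1) = (Nat.card G : ℂ) := by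
  rw [Cfsg.Agent.Lib.Char.Complete.sum_irr_mul_conj, if_pos (IsConj.refl _)]
  have h3 : Nat.card (Subgroup.centralizer ({1} : Set G)) = Nat.card G := by
    rw [Subgroup.centralizer_eq_top_iff_subset.mpr
      (Set.singleton_subset_iff.mpr (one_mem (Subgroup.center G)))]
    exact Nat.card_congr Subgroup.topEquiv.toEquiv
  rw [h3]

theorem sum_irr_mul_eq_zero {g s : G} (h : ¬ IsConj g s⁻¹) :
    ∑ χ : IrrCharacter G, (χ : G → ℂ) g * (χ : G → ℂ) s = 0 := by
  rw [← sum_irr_mul_conj_eq_zero h]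
  refine Fintype.sum_congr _ _ fun χ => ?_
  rw [← char_inv_eq_conj (isCharacter_of_isIrrCharacter χ.2), inv_inv]

theorem orderOf_eq_of_isConj {g s : G} (h : IsConj g s) : orderOf g = orderOf s := by
  obtain ⟨c, rfl⟩ := isConj_iff.mp h
  exact (orderOf_injective (MulAut.conj c).toMonoidHom (MulEquiv.injective _) g).symm

/-- Hattori's vanishing for the characters of an idempotent. -/
theorem sum_lin_mul_eq_zero [hMp : M.IsPrime] (hM : IsPModular p M) {y : GA G} (hy : y * y = y) (hR : Rc M y) {s : G}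
    (hs : p ∣ orderOf s) : ∑ χ : IrrCharacter G, lin (χ : G → ℂ) y * (χ : G → ℂ) s = 0 := by
  classical
  have hτ : IsClassFunction G (fun g => ∑ χ ∈ (Finset.univ : Finset (IrrCharacter G)),
      (χ : G → ℂ) s * (χ : G → ℂ) g) := by
    intro g x
    simp only
    refine Finset.sum_congr rfl fun χ _ => ?_
    rw [isClassFunction_irr χ]
  have h1 := Cfsg.Agent.Lib.Star.hattori hM hy hR hτ (fun c hc => by
    rw [Finset.sum_congr rfl fun χ _ => mul_comm _ _]
    refine sum_irr_mul_eq_zero fun hcs => ?_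
    apply hc
    rw [orderOf_eq_of_isConj hcs, orderOf_inv]
    exact hs)
  rw [lin_sum_mul] at h1
  rw [← h1]
  exact Finset.sum_congr rfl fun χ _ => mul_comm _ _

variable {P}

theorem dvd_orderOf_of_ne {hP : IsPGroup p P} [Fact p.Prime] {s : P} (hs : s ≠ 1) : p ∣ orderOf (s : G) := by
  obtain ⟨k, hk⟩ := (IsPGroup.iff_orderOf.mp hP) s
  rw [Subgroup.orderOf_coe, hk]
  refine dvd_pow_self _ ?_
  rintro rfl
  rw [pow_zero, orderOf_eq_one_iff] at hk
  exact hs hk

/-- The degree of a projective indecomposable character is divisible by `|P|`. -/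
theorem sum_deg_lin_eq [hMp : M.IsPrime] [Fact p.Prime] (hM : IsPModular p M) (hP : IsPGroup p P) {y : GA G} (hy : y * y = y)
    (hR : Rc M y) : ∑ χ : IrrCharacter G, (χ : G → ℂ) 1 * lin (χ : G → ℂ) y =
      (Nat.card P : ℂ) * ∑ χ : IrrCharacter G, lin (χ : G → ℂ) y * XX P (χ : G → ℂ) := by
  classical
  have hc0 : (Nat.card P : ℂ) ≠ 0 := Nat.cast_ne_zero.mpr Nat.card_pos.ne'
  have h1 : ∑ s : P, ∑ χ : IrrCharacter G, lin (χ : G → ℂ) y * (χ : G → ℂ) s =
      ∑ χ : IrrCharacter G, lin (χ : G → ℂ) y * (χ : G → ℂ) 1 := by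
    rw [Finset.sum_eq_single (1 : P)]
    · rfl
    · intro s _ hs
      exact sum_lin_mul_eq_zero hM hy hR (dvd_orderOf_of_ne (hP := hP) hs)
    · intro h
      exact absurd (Finset.mem_univ _) h
  rw [Finset.mul_sum]
  have h2 : ∀ χ : IrrCharacter G, (Nat.card P : ℂ) * (lin (χ : G → ℂ) y * XX P (χ : G → ℂ)) =
      ∑ s : P, lin (χ : G → ℂ) y * (χ : G → ℂ) s := by
    intro χ
    rw [XX, ← Finset.mul_sum]
    field_simp
  rw [Finset.sum_congr rfl fun χ _ => h2 χ, Finset.sum_comm, h1]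
  exact Finset.sum_congr rfl fun χ _ => mul_comm _ _

open Classical in
/-- The sum of the degrees with the multiplicities of the trivial character of `P`. -/
theorem sum_deg_XX [Fact p.Prime] (hM : IsPModular p M) (hB : IsPBlock M B) (hP : IsPGroup p P) :
    ∑ χ : IrrCharacter G, (if χ ∈ B then (χ : G → ℂ) 1 * XX P (χ : G → ℂ) else 0) =
      (Nat.card P : ℂ)⁻¹ * ∑ χ : IrrCharacter G, if χ ∈ B then (χ : G → ℂ) 1 * (χ : G → ℂ) 1 else 0 := by
  have hp : p.Prime := Fact.out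
  have h1 : ∑ s : P, ∑ χ : IrrCharacter G, (if χ ∈ B then (χ : G → ℂ) 1 * (χ : G → ℂ) s else 0) =
      ∑ χ : IrrCharacter G, if χ ∈ B then (χ : G → ℂ) 1 * (χ : G → ℂ) 1 else 0 := by
    rw [Finset.sum_eq_single (1 : P)]
    · rfl
    · intro s _ hs
      have h2 := Cfsg.Agent.Lib.Blocks.Weak.sum_block_eq_zero hM hB (1 : G) (s : G)⁻¹
        (by
          rw [orderOf_one]
          exact hp.one_lt.ne' ∘ Nat.dvd_one.mp)
        (by
          rw [orderOf_inv]
          exact dvd_orderOf_of_ne (hP := hP) hs)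
      have e : ∀ χ : IrrCharacter G, (if χ ∈ B then (χ : G → ℂ) 1 * (χ : G → ℂ) s else 0) =
          if χ ∈ B then (χ : G → ℂ) 1 * conj ((χ : G → ℂ) (s : G)⁻¹) else 0 := by
        intro χ
        split_ifs
        · rw [← char_inv_eq_conj (isCharacter_of_isIrrCharacter χ.2), inv_inv]
        · rfl
      rw [Fintype.sum_congr _ _ e]
      exact h2
    · intro h
      exact absurd (Finset.mem_univ _) h
  rw [← h1, Finset.sum_comm, Finset.mul_sum]
  refine Fintype.sum_congr _ _ fun χ => ?_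
  split_ifs
  · rw [XX, ← mul_assoc, mul_comm ((χ : G → ℂ) 1), mul_assoc, Finset.mul_sum]
  · simp

open Classical in
/-- The inner products of a regular part. -/
theorem sum_XX_inner [Fact p.Prime] (hM : IsPModular p M) (hB : IsPBlock M B) (hP : IsPGroup p P) {ψ : IrrCharacter G}
    (hψ : ψ ∈ B) : ∑ χ : IrrCharacter G, (if χ ∈ B then XX P (χ : G → ℂ) * classInner (pRegularPart p (ψ : G → ℂ)) (χ : G → ℂ) else 0) =
      (Nat.card P : ℂ)⁻¹ * (ψ : G → ℂ) 1 := by
  have hp : p.Prime := Fact.out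
  haveI := isPrime_of_pModular hM
  have hGc : (Nat.card G : ℂ) ≠ 0 := Nat.cast_ne_zero.mpr Nat.card_pos.ne'
  have h0 : ∀ χ : IrrCharacter G, χ ∉ B → classInner (pRegularPart p (ψ : G → ℂ)) (χ : G → ℂ) = 0 := by
    intro χ hχ
    refine classInner_pRegularPart_eq_zero hM fun hs => hχ ?_
    rw [isPBlock_eq_blockOf hB hψ]
    exact hs
  have e1 : ∑ χ : IrrCharacter G, (if χ ∈ B then XX P (χ : G → ℂ) * classInner (pRegularPart p (ψ : G → ℂ)) (χ : G → ℂ) else 0) =
      ∑ χ : IrrCharacter G, XX P (χ : G → ℂ) * classInner (pRegularPart p (ψ : G → ℂ)) (χ : G → ℂ) := by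
    refine Fintype.sum_congr _ _ fun χ => ?_
    split_ifs with hχ
    · rfl
    · rw [h0 χ hχ, mul_zero]
  rw [e1]
  simp only [XX, Cfsg.Agent.Lib.Char.Ortho.classInner_def]
  have e2 : ∀ χ : IrrCharacter G, (Nat.card P : ℂ)⁻¹ * (∑ y : P, (χ : G → ℂ) y) *
      ((Nat.card G : ℂ)⁻¹ * ∑ c : G, pRegularPart p (ψ : G → ℂ) c * conj ((χ : G → ℂ) c)) =
      (Nat.card P : ℂ)⁻¹ * ((Nat.card G : ℂ)⁻¹ * ∑ c : G, ∑ y : P, pRegularPart p (ψ : G → ℂ) c * ((χ : G → ℂ) y * conj ((χ : G → ℂ) c))) := by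
    intro χ
    have : ∑ c : G, ∑ y : P, pRegularPart p (ψ : G → ℂ) c * ((χ : G → ℂ) y * conj ((χ : G → ℂ) c)) =
        (∑ y : P, (χ : G → ℂ) y) * ∑ c : G, pRegularPart p (ψ : G → ℂ) c * conj ((χ : G → ℂ) c) := by
      rw [Finset.sum_mul_sum, Finset.sum_comm]
      refine Fintype.sum_congr _ _ fun c => Fintype.sum_congr _ _ fun y => ?_
      ring
    rw [this]
    ring
  rw [Fintype.sum_congr _ _ e2, ← Finset.mul_sum, ← Finset.mul_sum]
  congr 1
  rw [Finset.sum_comm]
  have e3 : ∀ c : G, ∑ χ : IrrCharacter G, ∑ y : P, pRegularPart p (ψ : G → ℂ) c * ((χ : G → ℂ) y * conj ((χ : G → ℂ) c)) =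
      if c = 1 then (Nat.card G : ℂ) * (ψ : G → ℂ) 1 else 0 := by
    intro c
    rw [Finset.sum_comm]
    by_cases hc : c = 1
    · subst hc
      rw [if_pos rfl]
      have h2 : ∑ y : P, ∑ χ : IrrCharacter G, (χ : G → ℂ) y * conj ((χ : G → ℂ) 1) = (Nat.card G : ℂ) := by
        rw [Finset.sum_eq_single (1 : P)]
        · exact sum_irr_one_conj
        · intro s _ hs
          refine sum_irr_mul_conj_eq_zero fun hc => ?_
          exact hs (Subtype.ext (isConj_one_right.mp hc.symm))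
        · intro h
          exact absurd (Finset.mem_univ _) h
      have h4 : IsPRegular p (1 : G) := by
        change ¬ p ∣ orderOf (1 : G)
        rw [orderOf_one]
        exact hp.one_lt.ne' ∘ Nat.dvd_one.mp
      simp only [← Finset.mul_sum]
      rw [h2, pRegularPart_apply, if_pos h4, mul_comm]
    · rw [if_neg hc]
      by_cases hr : IsPRegular p c
      · refine Finset.sum_eq_zero fun s _ => ?_
        rw [← Finset.mul_sum, sum_irr_mul_conj_eq_zero, mul_zero]
        intro hsc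
        by_cases hs : s = 1
        · subst hs
          exact hc (isConj_one_right.mp hsc)
        · apply hr
          rw [← orderOf_eq_of_isConj hsc]
          exact dvd_orderOf_of_ne (hP := hP) hs
      · refine Finset.sum_eq_zero fun s _ => ?_
        rw [pRegularPart_apply, if_neg hr]
        simp
  rw [Fintype.sum_congr _ _ e3, Finset.sum_ite_eq' Finset.univ (1 : G), if_pos (Finset.mem_univ _), ← mul_assoc,
    inv_mul_cancel₀ hGc, one_mul]

end Sylow

/-- The central element of a class function. -/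
theorem exists_central_G [hMp : M.IsPrime] {f : G → ℂ} (hf : IsClassFunction G f) (hl : ∀ c, MemLocalRing M (f c)) :
    ∃ Z : Subalgebra.center ℂ (GA G), Z ∈ localCenter M G ∧ ∀ χ : IrrCharacter G,
      (χ : G → ℂ) 1 * omegaHom χ Z = (Nat.card G : ℂ) * classInner f (χ : G → ℂ) := by
  classical
  have hcen : IsCentral (ofFun fun g : G => f g⁻¹) := by
    intro g h
    simp only [coeff_ofFun]
    have e : (h * g * h⁻¹)⁻¹ = h * g⁻¹ * h⁻¹ := by group
    rw [e, hf]
  refine ⟨⟨ofFun fun g : G => f g⁻¹, (mem_center_iff _).mpr hcen⟩, fun g => hl _, fun χ => ?_⟩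
  have hne := Cfsg.Agent.Lib.Char.Complete.irr_one_ne_zero χ.2
  rw [omegaHom_apply, mul_div_assoc', mul_comm, mul_div_assoc, div_self hne, mul_one]
  have hGc : (Nat.card G : ℂ) ≠ 0 := Nat.cast_ne_zero.mpr Nat.card_pos.ne'
  rw [Cfsg.Agent.Lib.Char.Ortho.classInner_def, ← mul_assoc, mul_inv_cancel₀ hGc, one_mul, lin_apply]
  simp only [coeff_ofFun]
  refine Fintype.sum_equiv (Equiv.inv G) _ _ fun g => ?_
  simp only [Equiv.inv_apply]
  rw [char_inv_eq_conj (isCharacter_of_isIrrCharacter χ.2)]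
  simp

open Classical in
/-- **The sum of the squares of the degrees has the right `p`-part.** -/
theorem not_dvd_sum [Fact p.Prime] (hM : IsPModular p M) (hB : IsPBlock M B) {P : Subgroup G} [Fintype P] (hP : IsPGroup p P)
    {a : ℕ} (hcard : Nat.card P = p ^ a) (ha : (Nat.card G).factorization p = a) {e : ℕ}
    (he : ∃ ψ ∈ B, (charDegree (ψ : G → ℂ)).factorization p = e) {x h : IrrCharacter G → ℕ}
    (hx : ∀ χ : IrrCharacter G, XX P (χ : G → ℂ) = x χ) (hh : ∀ χ ∈ B, charDegree (χ : G → ℂ) = p ^ e * h χ) :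
    ¬ p ∣ ∑ χ : IrrCharacter G, if χ ∈ B then h χ * x χ else 0 := by
  intro hdvd
  have hp : p.Prime := Fact.out
  haveI := isPrime_of_pModular hM
  obtain ⟨ψ, hψ, hψe⟩ := he
  have hhψ : ¬ p ∣ h ψ := by
    rintro ⟨t, ht⟩
    have h1 := hh ψ hψ
    have h2 : p ^ (e + 1) ∣ charDegree (ψ : G → ℂ) := by
      rw [h1, ht, pow_succ]
      exact mul_dvd_mul_left _ (Dvd.intro _ rfl)
    have h3 := (hp.pow_dvd_iff_le_factorization (Cfsg.Agent.Lib.Blocks.Heights.charDegree_ne_zero_irr ψ)).mp h2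
    omega
  set f := pRegularPart p (ψ : G → ℂ) with hf
  have hfc : IsClassFunction G f := isClassFunction_pRegularPart p (isClassFunction_irr ψ)
  have hfl : ∀ c, MemLocalRing M (f c) := by
    intro c
    rw [hf, pRegularPart_apply]
    split_ifs
    · exact memLocal_irr ψ c
    · exact memLocalRing_zero
  obtain ⟨Z, hZ, hZω⟩ := exists_central_G hfc hfl
  have h1 := sum_XX_inner (P := P) hM hB hP hψ
  set w := Nat.card G / p ^ a with hw
  have hwp : ¬ p ∣ w := by
    rw [hw, ← ha]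
    exact Nat.not_dvd_ordCompl hp Nat.card_pos.ne'
  have hG : (Nat.card G : ℂ) = ((p ^ a : ℕ) : ℂ) * (w : ℂ) := by
    rw [← Nat.cast_mul, hw, ← ha, Nat.ordProj_mul_ordCompl_eq_self]
  have hPc : (Nat.card P : ℂ) = ((p ^ a : ℕ) : ℂ) := by rw [hcard]
  have hpa : ((p ^ a : ℕ) : ℂ) ≠ 0 := Nat.cast_ne_zero.mpr (pow_ne_zero _ hp.ne_zero)
  have hpe : ((p ^ e : ℕ) : ℂ) ≠ 0 := Nat.cast_ne_zero.mpr (pow_ne_zero _ hp.ne_zero)
  -- the main relation
  have h2 : ∑ χ : IrrCharacter G, (if χ ∈ B then (h χ : ℂ) * x χ * omegaHom χ Z else 0) = (w : ℂ) * h ψ := by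
    apply mul_left_cancel₀ hpe
    have e1 : ∀ χ : IrrCharacter G, ((p ^ e : ℕ) : ℂ) * (if χ ∈ B then (h χ : ℂ) * x χ * omegaHom χ Z else 0) =
        (Nat.card G : ℂ) * (if χ ∈ B then XX P (χ : G → ℂ) * classInner f (χ : G → ℂ) else 0) := by
      intro χ
      split_ifs with hχ
      · have h3 := hZω χ
        rw [deg_eq, hh χ hχ, Nat.cast_mul] at h3
        rw [hx χ]
        linear_combination (x χ : ℂ) * h3
      · simp
    rw [Finset.mul_sum, Fintype.sum_congr _ _ e1, ← Finset.mul_sum, h1, deg_eq, hh ψ hψ, hG, hPc, Nat.cast_mul]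
    field_simp
  -- reduction
  have h3 : MemLocalIdeal M ((∑ χ : IrrCharacter G, if χ ∈ B then h χ * x χ else 0 : ℕ) : ℂ) :=
    (natCast_memLocalIdeal_iff hM _).mpr hdvd
  have h4 : (w : ℂ) * h ψ = ((∑ χ : IrrCharacter G, if χ ∈ B then h χ * x χ else 0 : ℕ) : ℂ) * omegaHom ψ Z +
      ∑ χ : IrrCharacter G, if χ ∈ B then (h χ : ℂ) * x χ * (omegaHom χ Z - omegaHom ψ Z) else 0 := by
    rw [← h2]
    push_cast
    rw [Finset.sum_mul, ← Finset.sum_add_distrib]
    refine Fintype.sum_congr _ _ fun χ => ?_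
    split_ifs
    · ring
    · simp
  have h5 : MemLocalIdeal M ((w : ℂ) * h ψ) := by
    rw [h4]
    refine memLocalIdeal_add (memLocalIdeal_mul_right h3 (omegaHom_mem_local ψ hZ)) ?_
    refine memLocalIdeal_sum _ _ fun χ _ => ?_
    split_ifs with hχ
    · refine memLocalIdeal_mul_left (memLocalRing_mul (memLocalRing_natCast _) (memLocalRing_natCast _))
        (omegaHom_sub_mem_of_sameBlock ?_ hZ)
      have := isPBlock_eq_blockOf hB hψ
      rw [this] at hχ
      exact sameBlock_symm hχ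
    · exact memLocalIdeal_zero
  rw [← Nat.cast_mul, natCast_memLocalIdeal_iff hM] at h5
  rcases (Nat.Prime.dvd_mul hp).mp h5 with h6 | h6
  · exact hwp h6
  · exact hhψ h6

open Classical in
/-- **The sum of the squares of the degrees of a block.** -/
theorem main [Fact p.Prime] (hM : IsPModular p M) (hB : IsPBlock M B) {D : Subgroup G} (hD : IsDefectGroup p M B D)
    {a d : ℕ} (ha : (Nat.card G).factorization p = a) (hd : Nat.card D = p ^ d) {g : ℕ}
    (hg1 : ∀ χ ∈ B, g ∣ charDegree (χ : G → ℂ))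
    (hg2 : ∀ g' : ℕ, (∀ χ ∈ B, g' ∣ charDegree (χ : G → ℂ)) → g' ∣ g) :
    g.factorization p = a - d ∧ ∃ v : ℕ, 0 < v ∧ ¬ p ∣ v ∧ blockRank p B ≤ v ∧
      ∑ χ : IrrCharacter G, (if χ ∈ B then charDegree (χ : G → ℂ) ^ 2 else 0) =
        p ^ (2 * a - d) * (g / p ^ (a - d)) ^ 2 * v := by
  have hp : p.Prime := Fact.out
  haveI hMp := isPrime_of_pModular hM
  have hne := isPBlock_nonempty hB
  have hdef : blockDefect p B = d := by
    have h1 := Cfsg.Agent.Lib.Blocks.Inducing.card_eq_pow_blockDefect hM hB hD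
    rw [hd] at h1
    exact (Nat.pow_right_injective hp.two_le h1).symm
  obtain ⟨ψ₀, hψ₀, hψe⟩ := Cfsg.Agent.Lib.BlockP.Defect.exists_minExp p hne
  set e := Cfsg.Agent.Lib.BlockP.Defect.minExp p B with he
  have hae : e + d = a := by
    have h1 := Cfsg.Agent.Lib.Blocks.RegPart2.minExp_add_blockDefect (p := p) hψ₀
    rw [hdef, ha] at h1
    exact h1
  have had : a - d = e := by omega
  have hdeg0 : ∀ χ : IrrCharacter G, charDegree (χ : G → ℂ) ≠ 0 := fun χ =>
    Cfsg.Agent.Lib.Blocks.Heights.charDegree_ne_zero_irr χ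
  have hg0 : g ≠ 0 := by
    rintro rfl
    exact hdeg0 ψ₀ (zero_dvd_iff.mp (hg1 ψ₀ hψ₀))
  have hpe : ∀ χ ∈ B, p ^ e ∣ charDegree (χ : G → ℂ) := by
    intro χ hχ
    refine (hp.pow_dvd_iff_le_factorization (hdeg0 χ)).mpr ?_
    exact Cfsg.Agent.Lib.BlockP.Defect.minExp_le p hχ
  have hpg : p ^ e ∣ g := hg2 _ hpe
  have hgf : g.factorization p = e := by
    refine le_antisymm ?_ ((hp.pow_dvd_iff_le_factorization hg0).mp hpg)
    rw [← hψe]
    exact (Nat.factorization_le_iff_dvd hg0 (hdeg0 ψ₀)).mpr (hg1 ψ₀ hψ₀) p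
  refine ⟨by rw [hgf, had], ?_⟩
  rw [had]
  set u := g / p ^ e with hu
  have hgu : g = p ^ e * u := (Nat.mul_div_cancel' hpg).symm
  have hup : ¬ p ∣ u := by
    rw [hu, ← hgf]
    exact Nat.not_dvd_ordCompl hp hg0
  have hu0 : 0 < u := by
    rcases Nat.eq_zero_or_pos u with h | h
    · rw [h] at hup
      exact absurd (dvd_zero p) hup
    · exact h
  -- the data
  obtain ⟨Q, β, n, hdata⟩ := exists_ibrData (M := M) (idem_mem_localCenter hB)
  obtain ⟨Ps⟩ : Nonempty (Sylow p G) := inferInstance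
  set P : Subgroup G := (Ps : Subgroup G) with hPdef
  letI : Fintype P := Fintype.ofFinite _
  have hP : IsPGroup p P := Ps.isPGroup'
  have hPc : Nat.card P = p ^ a := by
    rw [← ha]
    exact Ps.card_eq_multiplicity
  have hXn : ∀ χ : IrrCharacter G, ∃ m : ℕ, XX P (χ : G → ℂ) = m := fun χ =>
    exists_nat_XX P (isCharacter_of_isIrrCharacter χ.2)
  choose x hx using hXn
  have hdn : ∀ (χ : IrrCharacter G) (i : GA G), ∃ m : ℕ, i ∈ Q → lin (χ : G → ℂ) i = m := by
    intro χ i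
    by_cases hi : i ∈ Q
    · obtain ⟨m, hm⟩ := exists_nat_lin_idem (isCharacter_of_isIrrCharacter χ.2) (hdata.prim i hi).idem
      exact ⟨m, fun _ => hm⟩
    · exact ⟨0, fun h => absurd h hi⟩
  choose dd hdd using hdn
  have hd0 : ∀ (χ : IrrCharacter G) (i : GA G), i ∈ Q → χ ∉ B → dd χ i = 0 := by
    intro χ i hi hχ
    have h1 := hdd χ i hi
    rw [lin_eq_zero_of_notMem hχ (hdata.below i hi)] at h1
    exact_mod_cast h1.symm
  set Phi : GA G → ℕ := fun i => ∑ χ : IrrCharacter G, if χ ∈ B then charDegree (χ : G → ℂ) * dd χ i else 0 with hPhi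
  set W : GA G → ℕ := fun i => ∑ χ : IrrCharacter G, dd χ i * x χ with hW
  have hPhiW : ∀ i ∈ Q, Phi i = p ^ a * W i := by
    intro i hi
    have h1 := sum_deg_lin_eq (P := P) hM hP (hdata.prim i hi).idem (hdata.prim i hi).mem
    have h2 : ((Phi i : ℕ) : ℂ) = ∑ χ : IrrCharacter G, (χ : G → ℂ) 1 * lin (χ : G → ℂ) i := by
      simp only [hPhi]
      push_cast
      refine Fintype.sum_congr _ _ fun χ => ?_
      split_ifs with hχ
      · rw [deg_eq, hdd χ i hi]
      · rw [hdd χ i hi, hd0 χ i hi hχ]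
        simp
    have h3 : ((p ^ a * W i : ℕ) : ℂ) = (Nat.card P : ℂ) * ∑ χ : IrrCharacter G, lin (χ : G → ℂ) i * XX P (χ : G → ℂ) := by
      rw [hPc]
      simp only [hW]
      push_cast
      congr 1
      refine Fintype.sum_congr _ _ fun χ => ?_
      rw [hdd χ i hi, hx]
    rw [h1, ← h3] at h2
    exact_mod_cast h2
  have hgPhi : ∀ i, g ∣ Phi i := by
    intro i
    refine Finset.dvd_sum fun χ _ => ?_
    split_ifs with hχ
    · exact Dvd.dvd.mul_right (hg1 χ hχ) _
    · exact dvd_zero _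
  have huW : ∀ i ∈ Q, u ∣ W i := by
    intro i hi
    have h1 : u ∣ p ^ a * W i := by
      rw [← hPhiW i hi]
      exact (Dvd.intro_left _ hgu.symm).trans (hgPhi i)
    have hcop : Nat.Coprime u (p ^ a) := Nat.Coprime.pow_right _ ((Nat.Prime.coprime_iff_not_dvd hp).mpr hup).symm
    exact hcop.dvd_of_dvd_mul_left h1
  have hWpos : ∀ i ∈ Q, 0 < W i := by
    intro i hi
    obtain ⟨χ, hχ⟩ := exists_lin_ne (hdata.prim i hi).idem (hdata.prim i hi).ne
    have hχB : χ ∈ B := by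
      by_contra hc
      exact hχ (lin_eq_zero_of_notMem hc (hdata.below i hi))
    have hdχ : dd χ i ≠ 0 := by
      intro h0
      apply hχ
      rw [hdd χ i hi, h0]
      simp
    have hPh : 0 < Phi i := by
      refine Finset.sum_pos' (fun _ _ => Nat.zero_le _) ⟨χ, Finset.mem_univ _, ?_⟩
      rw [if_pos hχB]
      exact Nat.mul_pos (Nat.pos_of_ne_zero (hdeg0 χ)) (Nat.pos_of_ne_zero hdχ)
    rw [hPhiW i hi] at hPh
    exact Nat.pos_of_mul_pos_left hPh
  have hn : ∀ i : GA G, ∃ m : ℕ, i ∈ Q → n i = g * m := by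
    intro i
    by_cases hi : i ∈ Q
    · obtain ⟨m, hm⟩ := IBrData.dvd_n hdata hM hB hg1 hi
      exact ⟨m, fun _ => hm⟩
    · exact ⟨0, fun h => absurd h hi⟩
  choose n' hn' using hn
  have hf : ∀ i : GA G, ∃ m : ℕ, i ∈ Q → W i = u * m := by
    intro i
    by_cases hi : i ∈ Q
    · obtain ⟨m, hm⟩ := huW i hi
      exact ⟨m, fun _ => hm⟩
    · exact ⟨0, fun h => absurd h hi⟩
  choose f hf' using hf
  have hn'pos : ∀ i ∈ Q, 0 < n' i := by
    intro i hi
    have h1 := hdata.pos i hi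
    rw [hn' i hi] at h1
    exact Nat.pos_of_mul_pos_left h1
  have hfpos : ∀ i ∈ Q, 0 < f i := by
    intro i hi
    have h1 := hWpos i hi
    rw [hf' i hi] at h1
    exact Nat.pos_of_mul_pos_left h1
  set V := ∑ i ∈ Q, n' i * f i with hV
  set S := ∑ χ : IrrCharacter G, if χ ∈ B then charDegree (χ : G → ℂ) ^ 2 else 0 with hS
  have hSV : S = p ^ (e + a) * u ^ 2 * V := by
    have h1 : (S : ℂ) = ((∑ i ∈ Q, n i * Phi i : ℕ) : ℂ) := by
      have h2 := IBrData.sum_sq hdata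
      rw [hS]
      push_cast
      have e1 : ∑ χ : IrrCharacter G, (if χ ∈ B then (charDegree (χ : G → ℂ) : ℂ) ^ 2 else 0) =
          ∑ χ : IrrCharacter G, (if χ ∈ B then (χ : G → ℂ) 1 * (χ : G → ℂ) 1 else 0) := by
        refine Fintype.sum_congr _ _ fun χ => ?_
        split_ifs
        · rw [deg_eq]
          ring
        · rfl
      rw [e1, h2]
      refine Finset.sum_congr rfl fun i hi => ?_
      congr 1
      simp only [hPhi]
      push_cast
      refine Fintype.sum_congr _ _ fun χ => ?_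
      split_ifs
      · rw [deg_eq, hdd χ i hi]
      · rfl
    have h3 : S = ∑ i ∈ Q, n i * Phi i := by exact_mod_cast h1
    rw [h3, hV, Finset.mul_sum]
    refine Finset.sum_congr rfl fun i hi => ?_
    rw [hn' i hi, hPhiW i hi, hf' i hi, hgu, pow_add]
    ring
  have hVrank : blockRank p B ≤ V := by
    refine (hdata.blockRank_le hM (idem_mem_localCenter hB)).trans ?_
    rw [Finset.card_eq_sum_ones]
    exact Finset.sum_le_sum fun i hi => Nat.mul_pos (hn'pos i hi) (hfpos i hi)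
  -- the `p`-part
  set h : IrrCharacter G → ℕ := fun χ => charDegree (χ : G → ℂ) / p ^ e with hh
  have hhe : ∀ χ ∈ B, charDegree (χ : G → ℂ) = p ^ e * h χ := fun χ hχ =>
    (Nat.mul_div_cancel' (hpe χ hχ)).symm
  have hT := not_dvd_sum (P := P) hM hB hP hPc ha ⟨ψ₀, hψ₀, hψe⟩ hx hhe
  have hST : S = p ^ (e + a) * ∑ χ : IrrCharacter G, if χ ∈ B then h χ * x χ else 0 := by
    have h1 := sum_deg_XX (P := P) hM hB hP
    have hPc0 : (Nat.card P : ℂ) ≠ 0 := Nat.cast_ne_zero.mpr Nat.card_pos.ne'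
    have h2 : (S : ℂ) = ((p ^ (e + a) * ∑ χ : IrrCharacter G, if χ ∈ B then h χ * x χ else 0 : ℕ) : ℂ) := by
      have e1 : (S : ℂ) = ∑ χ : IrrCharacter G, (if χ ∈ B then (χ : G → ℂ) 1 * (χ : G → ℂ) 1 else 0) := by
        rw [hS]
        push_cast
        refine Fintype.sum_congr _ _ fun χ => ?_
        split_ifs
        · rw [deg_eq]
          ring
        · rfl
      rw [e1]
      have e2 : ∑ χ : IrrCharacter G, (if χ ∈ B then (χ : G → ℂ) 1 * (χ : G → ℂ) 1 else 0) =
          (Nat.card P : ℂ) * ∑ χ : IrrCharacter G, (if χ ∈ B then (χ : G → ℂ) 1 * XX P (χ : G → ℂ) else 0) := by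
        rw [h1, ← mul_assoc, mul_inv_cancel₀ hPc0, one_mul]
      have e3 : ∑ χ : IrrCharacter G, (if χ ∈ B then (χ : G → ℂ) 1 * XX P (χ : G → ℂ) else 0) =
          ((p ^ e : ℕ) : ℂ) * ∑ χ : IrrCharacter G, (if χ ∈ B then (h χ : ℂ) * x χ else 0) := by
        rw [Finset.mul_sum]
        refine Fintype.sum_congr _ _ fun χ => ?_
        split_ifs with hχ
        · rw [hx, deg_eq, hhe χ hχ]
          push_cast
          ring
        · simp
      rw [e2, e3, hPc]
      push_cast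
      rw [pow_add]
      ring
    exact_mod_cast h2
  have hpos : 0 < p ^ (e + a) := pow_pos hp.pos _
  have hTV : (∑ χ : IrrCharacter G, if χ ∈ B then h χ * x χ else 0) = u ^ 2 * V := by
    have h1 := hST.symm.trans hSV
    rw [mul_assoc] at h1
    exact Nat.eq_of_mul_eq_mul_left hpos h1
  have hVp : ¬ p ∣ V := by
    intro hc
    apply hT
    rw [hTV]
    exact Dvd.dvd.mul_left hc _
  refine ⟨V, ?_, hVp, hVrank, ?_⟩
  · rcases Nat.eq_zero_or_pos V with h0 | h0
    · rw [h0] at hVp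
      exact absurd (dvd_zero p) hVp
    · exact h0
  · rw [hSV]
    congr 3
    omega

end Cfsg.Agent.Lib.IBr.SqSum
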