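import Mathlib
import Cfsg.Agent.Lib.IBr.SqSum
import Cfsg.Agent.Lib.BlockOne.Count
import Cfsg.Agent.Lib.GaloisFix.Basic

/-!
# The trace of an automorphism on the regular parts of a block, and `p`-rational characters

* `twist_trace`: for an automorphism `τ` of `K` and a union of blocks `A`, the sum
  `∑_{χ ∈ A} ⟨χ⁰ ∘ τ, χ⟩` is the number of classes of primitive idempotents fixed by `τ`.  In particular it is a
  natural number.
* `le_card_fixed`: the number of members of `B` fixed by the power map `g ↦ g ^ k`, `k ≡ 1` modulo `|G|_{p'}`, is at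
  least the rank of `B`.
-/

set_option autoImplicit false
set_option linter.unusedSectionVars false
set_option linter.style.haveILetI false

namespace Cfsg.Agent.Lib.IBr.Twist

open Cfsg MonoidAlgebra Module
open Cfsg.Agent.Lib.Blocks.Local Cfsg.Agent.Lib.Blocks.Central Cfsg.Agent.Lib.Blocks.Brauer
open Cfsg.Agent.Lib.BlockAlg Cfsg.Agent.Lib.Blk89.BlockPow
open Cfsg.Agent.Lib.BP.Fit Cfsg.Agent.Lib.BP.Corner Cfsg.Agent.Lib.BP.KS
open Cfsg.Agent.Lib.BK.Trc Cfsg.Agent.Lib.BK.Dual Cfsg.Agent.Lib.BK.Equal Cfsg.Agent.Lib.BK.Coef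
open Cfsg.Agent.Lib.BK.Hat Cfsg.Agent.Lib.IBr.Basic Cfsg.Agent.Lib.IBr.SqSum
open Cfsg.Agent.Lib.BlockH.Regular Cfsg.Agent.Lib.Char.Basic
open Cfsg.Agent.Lib.Char.Ortho Cfsg.Agent.Lib.Char.Complete
open scoped ComplexConjugate

universe u

section Transport

variable {K : Type u} [Group K] [Fintype K] {M : Ideal AlgInt} [hMp : M.IsPrime] (τ : K ≃* K)

/-- The transport of an element of the group algebra along an automorphism. -/
noncomputable abbrev TT : GA K ≃ₐ[ℂ] GA K := MonoidAlgebra.domCongr ℂ ℂ τ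

theorem rc_TT {x : GA K} (hx : Rc M x) : Rc M (TT τ x) := fun g => by
  rw [coeff_domCongr]
  exact hx _

theorem TT_symm_TT (x : GA K) : TT τ.symm (TT τ x) = x := by
  ext g
  simp [coeff_domCongr]

theorem TT_TT_symm (x : GA K) : TT τ (TT τ.symm x) = x := by
  ext g
  simp [coeff_domCongr]

theorem isPrim_TT {i : GA K} (hi : IsPrim (RcS M K) i) : IsPrim (RcS M K) (TT τ i) := by
  refine ⟨rc_TT τ hi.mem, ?_, ?_, ?_⟩
  · rw [← map_mul, hi.idem]
  · intro h
    apply hi.ne
    have := congrArg (TT τ.symm) h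
    rwa [TT_symm_TT, map_zero] at this
  · intro z hz hzz h1 h2
    have hz' : TT τ.symm z ∈ RcS M K := rc_TT τ.symm hz
    have hzz' : TT τ.symm z * TT τ.symm z = TT τ.symm z := by rw [← map_mul, hzz]
    have h1' : i * TT τ.symm z = TT τ.symm z := by
      have := congrArg (TT τ.symm) h1
      rwa [map_mul, TT_symm_TT] at this
    have h2' : TT τ.symm z * i = TT τ.symm z := by
      have := congrArg (TT τ.symm) h2
      rwa [map_mul, TT_symm_TT] at this
    rcases hi.prim _ hz' hzz' h1' h2' with h | h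
    · left
      have := congrArg (TT τ) h
      rwa [TT_TT_symm, map_zero] at this
    · right
      have := congrArg (TT τ) h
      rwa [TT_TT_symm] at this

theorem lin_comp (f : K → ℂ) (x : GA K) : lin (fun y => f (τ y)) x = lin f (TT τ x) := by
  rw [lin_apply, lin_apply]
  refine Fintype.sum_equiv τ.toEquiv _ _ fun y => ?_
  rw [coeff_domCongr]
  simp

end Transport

section Trace

variable {K : Type u} [Group K] [Fintype K] [Fintype (IrrCharacter K)] {M : Ideal AlgInt} {p : ℕ}

/-- The linear extension of a class function in terms of the irreducible characters. -/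
theorem lin_eq_sum_inner {f : K → ℂ} (hf : IsClassFunction K f) (x : GA K) :
    lin f x = ∑ χ : IrrCharacter K, classInner f (χ : K → ℂ) * lin (χ : K → ℂ) x := by
  have h1 : f = fun g => ∑ χ ∈ (Finset.univ : Finset (IrrCharacter K)), classInner f (χ : K → ℂ) * (χ : K → ℂ) g := by
    funext g
    conv_lhs => rw [classFunction_eq_sum hf]
    rw [Finset.sum_apply]
    rfl
  conv_lhs => rw [h1]
  rw [lin_sum_mul]

open Classical in
/-- **The trace of an automorphism.** -/
theorem twist_trace [hMp : M.IsPrime] [Fact p.Prime] (hM : IsPModular p M) {A : Set (IrrCharacter K)}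
    (hA : idem A ∈ localCenter M K) (τ : K ≃* K) :
    ∃ m : ℕ, ∑ y : K, (if p ∣ orderOf y then 0 else ∑ χ : IrrCharacter K,
      if χ ∈ A then (χ : K → ℂ) (τ y) * conj ((χ : K → ℂ) y) else 0) = (Nat.card K : ℂ) * m := by
  obtain ⟨Q, β, n, h⟩ := exists_ibrData (M := M) hA
  refine ⟨(Q.filter fun i => Iso (RcS M K) (TT τ i) i).card, ?_⟩
  have e1 : ∀ y : K, (if p ∣ orderOf y then (0 : ℂ) else ∑ χ : IrrCharacter K,
      if χ ∈ A then (χ : K → ℂ) (τ y) * conj ((χ : K → ℂ) y) else 0) =
      ∑ i ∈ Q, β i (τ y) * ∑ χ : IrrCharacter K, lin (χ : K → ℂ) i * conj ((χ : K → ℂ) y) := by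
    intro y
    by_cases hy : p ∣ orderOf y
    · rw [if_pos hy]
      symm
      refine Finset.sum_eq_zero fun i hi => ?_
      have h2 := sum_lin_mul_eq_zero hM (h.prim i hi).idem (h.prim i hi).mem (s := y⁻¹)
        (by rwa [orderOf_inv])
      have h3 : ∑ χ : IrrCharacter K, lin (χ : K → ℂ) i * conj ((χ : K → ℂ) y) = 0 := by
        rw [← h2]
        refine Fintype.sum_congr _ _ fun χ => ?_
        rw [char_inv_eq_conj (isCharacter_of_isIrrCharacter χ.2)]
      rw [h3, mul_zero]
    · rw [if_neg hy]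
      have hτy : ¬ p ∣ orderOf (τ y) := by rwa [MulEquiv.orderOf_eq]
      simp only [Finset.mul_sum]
      rw [Finset.sum_comm]
      refine Fintype.sum_congr _ _ fun χ => ?_
      split_ifs with hχ
      · rw [h.irr_eq_sum hM hA hχ hτy, Finset.sum_mul]
        refine Finset.sum_congr rfl fun i _ => ?_
        ring
      · symm
        refine Finset.sum_eq_zero fun i hi => ?_
        rw [lin_eq_zero_of_notMem hχ (h.below i hi)]
        ring
  rw [Fintype.sum_congr _ _ e1, Finset.sum_comm]
  have e2 : ∀ i ∈ Q, ∑ y : K, β i (τ y) * ∑ χ : IrrCharacter K, lin (χ : K → ℂ) i * conj ((χ : K → ℂ) y) =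
      (Nat.card K : ℂ) * if Iso (RcS M K) (TT τ i) i then 1 else 0 := by
    intro i hi
    have hf : IsClassFunction K (fun y => β i (τ y)) := by
      intro g x
      simp only [map_mul, map_inv]
      exact h.cls i hi _ _
    have h3 := lin_eq_sum_inner hf i
    rw [lin_comp, h.dual i hi _ (isPrim_TT τ (h.prim i hi))] at h3
    have h4 : (if Iso (RcS M K) (TT τ i) i then (1 : ℂ) else 0) =
        @ite _ (Iso (RcS M K) (TT τ i) i) (Classical.propDecidable _) 1 0 := by
      congr
    rw [h4, h3, Finset.mul_sum]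
    simp only [Finset.mul_sum]
    rw [Finset.sum_comm]
    refine Fintype.sum_congr _ _ fun χ => ?_
    rw [classInner_def, ← mul_assoc, ← mul_assoc, mul_inv_cancel₀ (Nat.cast_ne_zero.mpr Nat.card_pos.ne'), one_mul,
      Finset.sum_mul]
    refine Fintype.sum_congr _ _ fun y => ?_
    ring
  rw [Finset.sum_congr rfl e2, ← Finset.mul_sum]
  congr 1
  rw [Finset.card_filter]
  push_cast
  rfl

end Trace

section Rational

open Cfsg.Agent.Lib.Blocks.Subsection Cfsg.Agent.Lib.Blocks.Sections Cfsg.Agent.Lib.Blocks.NormSum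
open Cfsg.Agent.Lib.OddChar.GaloisConj Cfsg.Agent.Lib.GaloisFix.Basic

variable {G : Type u} [Group G] [Fintype G] [Fintype (IrrCharacter G)] {M : Ideal AlgInt} {p : ℕ} [Fact p.Prime]
variable {B : Set (IrrCharacter G)}

theorem pow_eq_self_of_regular {k : ℕ} (hk1 : k ≡ 1 [MOD Nat.card G / p ^ (Nat.card G).factorization p]) {y : G}
    (hy : ¬ p ∣ orderOf y) : y ^ k = y := by
  have hp : p.Prime := Fact.out
  have h1 : orderOf y ∣ Nat.card G / p ^ (Nat.card G).factorization p := by
    have h2 : orderOf y ∣ p ^ (Nat.card G).factorization p * (Nat.card G / p ^ (Nat.card G).factorization p) := by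
      rw [Nat.ordProj_mul_ordCompl_eq_self]
      exact orderOf_dvd_natCard y
    have hcop : Nat.Coprime (orderOf y) (p ^ (Nat.card G).factorization p) :=
      Nat.Coprime.pow_right _ ((Nat.Prime.coprime_iff_not_dvd hp).mpr hy).symm
    exact hcop.dvd_of_dvd_mul_left h2
  have h3 : y ^ k = y ^ 1 := (pow_eq_pow_iff_modEq).mpr (hk1.of_dvd h1)
  rwa [pow_one] at h3

open Classical in
/-- The kernel of the power map. -/
noncomputable def fK (p : ℕ) (k : ℕ) (B : Set (IrrCharacter G)) (g : G) : ℂ :=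
  ∑ ζ : IrrCharacter G, if ζ ∈ B then (ζ : G → ℂ) (g ^ k) * conj ((ζ : G → ℂ) g) else 0

theorem isClassFunction_fK (k : ℕ) : IsClassFunction G (fK p k B) := by
  classical
  intro g h
  simp only [fK]
  refine Fintype.sum_congr _ _ fun ζ => ?_
  have e : (h * g * h⁻¹) ^ k = h * g ^ k * h⁻¹ := conj_pow
  rw [e, isClassFunction_irr ζ, isClassFunction_irr ζ]

open Classical in
theorem card_fixed_eq {k : ℕ} (hk : k.Coprime (Nat.card G)) :
    (((Finset.univ.filter fun χ : IrrCharacter G => χ ∈ B ∧ ∀ g : G, (χ : G → ℂ) (g ^ k) = (χ : G → ℂ) g).card : ℕ) : ℂ) =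
      (Nat.card G : ℂ)⁻¹ * ∑ g : G, fK p k B g := by
  simp only [fK]
  rw [Finset.sum_comm, Finset.mul_sum, Finset.card_filter]
  push_cast
  refine Fintype.sum_congr _ _ fun ζ => ?_
  by_cases hζ : ζ ∈ B
  · simp only [hζ, true_and, if_true]
    have h1 := classInner_irr (pw k hk ζ).2 ζ.2
    rw [classInner_def] at h1
    have e : ((pw k hk ζ : IrrCharacter G) : G → ℂ) = fun g => (ζ : G → ℂ) (g ^ k) := rfl
    rw [e] at h1
    have h1' : (Nat.card G : ℂ)⁻¹ * ∑ g : G, (ζ : G → ℂ) (g ^ k) * conj ((ζ : G → ℂ) g) =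
        if (fun g => (ζ : G → ℂ) (g ^ k)) = (ζ : G → ℂ) then 1 else 0 := h1
    rw [h1']
    by_cases hfix : ∀ g : G, (ζ : G → ℂ) (g ^ k) = (ζ : G → ℂ) g
    · rw [if_pos hfix, if_pos (funext hfix)]
    · rw [if_neg hfix, if_neg fun hc => hfix (congrFun hc)]
  · simp [hζ]

open Classical in
/-- A section contributes a natural number. -/
theorem exists_section_term (hM : IsPModular p M) (hB : IsPBlock M B) {k : ℕ} (hk : k.Coprime (Nat.card G))
    (hk1 : k ≡ 1 [MOD Nat.card G / p ^ (Nat.card G).factorization p]) {x : G} (hx : ∃ e : ℕ, orderOf x = p ^ e)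
    [Fintype (Subgroup.centralizer ({x} : Set G))] [Fintype (IrrCharacter (Subgroup.centralizer ({x} : Set G)))] :
    ∃ m : ℕ, (Nat.card (Subgroup.centralizer ({x} : Set G)) : ℂ)⁻¹ * ∑ y : Subgroup.centralizer ({x} : Set G),
      (if p ∣ orderOf y then 0 else fK p k B (x * (y : G))) = m := by
  have hp : p.Prime := Fact.out
  haveI hMp := isPrime_of_pModular hM
  have hC0 : (Nat.card (Subgroup.centralizer ({x} : Set G)) : ℂ) ≠ 0 := Nat.cast_ne_zero.mpr Nat.card_pos.ne'
  have hxy : ∀ y : Subgroup.centralizer ({x} : Set G), ¬ p ∣ orderOf y → (x * (y : G)) ^ k = x ^ k * (y : G) := by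
    intro y hy
    have hc : Commute x (y : G) := (Subgroup.mem_centralizer_singleton_iff.mp y.2).symm
    rw [hc.mul_pow, pow_eq_self_of_regular hk1 (y := (y : G)) (by rwa [Subgroup.orderOf_coe])]
  by_cases hconj : IsConj (x ^ k) x
  · obtain ⟨t, ht⟩ := isConj_iff.mp hconj
    -- the automorphism of the centralizer
    have hmem : ∀ y : Subgroup.centralizer ({x} : Set G), t * (y : G) * t⁻¹ ∈ Subgroup.centralizer ({x} : Set G) := by
      intro y
      rw [Subgroup.mem_centralizer_singleton_iff]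
      have hc : Commute x (y : G) := (Subgroup.mem_centralizer_singleton_iff.mp y.2).symm
      have hc2 : Commute (x ^ k) (y : G) := hc.pow_left k
      calc t * (y : G) * t⁻¹ * x = t * (y : G) * t⁻¹ * (t * x ^ k * t⁻¹) := by rw [ht]
        _ = t * ((y : G) * x ^ k) * t⁻¹ := by group
        _ = t * (x ^ k * (y : G)) * t⁻¹ := by rw [hc2.eq]
        _ = (t * x ^ k * t⁻¹) * (t * (y : G) * t⁻¹) := by group
        _ = x * (t * (y : G) * t⁻¹) := by rw [ht]
    let τ0 : Subgroup.centralizer ({x} : Set G) →* Subgroup.centralizer ({x} : Set G) :=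
      { toFun := fun y => ⟨t * (y : G) * t⁻¹, hmem y⟩
        map_one' := by
          apply Subtype.ext
          simp
        map_mul' := by
          intro a b
          apply Subtype.ext
          simp only [Subgroup.coe_mul]
          group }
    have hinj : Function.Injective τ0 := by
      intro a b hab
      have h1 : t * (a : G) * t⁻¹ = t * (b : G) * t⁻¹ := congrArg Subtype.val hab
      exact Subtype.ext (by simpa using h1)
    let τ : Subgroup.centralizer ({x} : Set G) ≃* Subgroup.centralizer ({x} : Set G) :=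
      MulEquiv.ofBijective τ0 (Finite.injective_iff_bijective.mp hinj)
    have hτ : ∀ y, ((τ y : Subgroup.centralizer ({x} : Set G)) : G) = t * (y : G) * t⁻¹ := fun y => rfl
    obtain ⟨m, hm⟩ := twist_trace (M := M) (p := p) hM
      (idem_indUnion_mem (M := M) (H := Subgroup.centralizer ({x} : Set G)) (B := B)) τ
    refine ⟨m, ?_⟩
    have e : ∀ y : Subgroup.centralizer ({x} : Set G), (if p ∣ orderOf y then (0 : ℂ) else fK p k B (x * (y : G))) =
        if p ∣ orderOf y then 0 else ∑ χ : IrrCharacter (Subgroup.centralizer ({x} : Set G)),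
          if χ ∈ indUnion M (Subgroup.centralizer ({x} : Set G)) B then
            (χ : Subgroup.centralizer ({x} : Set G) → ℂ) (τ y) *
              conj ((χ : Subgroup.centralizer ({x} : Set G) → ℂ) y) else 0 := by
      intro y
      split_ifs with hy
      · rfl
      · have hτy : ¬ p ∣ orderOf (τ y) := by rwa [MulEquiv.orderOf_eq]
        rw [← section_sum_eq hM hx hB (τ y) y hτy hy, fK]
        refine Fintype.sum_congr _ _ fun ζ => ?_
        split_ifs
        · congr 1
          rw [hxy y hy, hτ, ← isClassFunction_irr ζ (x ^ k * (y : G)) t]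
          have e3 : t * (x ^ k * (y : G)) * t⁻¹ = x * (t * (y : G) * t⁻¹) := by
            calc t * (x ^ k * (y : G)) * t⁻¹ = (t * x ^ k * t⁻¹) * (t * (y : G) * t⁻¹) := by group
              _ = _ := by rw [ht]
          rw [e3]
        · rfl
    rw [Fintype.sum_congr _ _ e, hm, ← mul_assoc, inv_mul_cancel₀ hC0, one_mul]
  · refine ⟨0, ?_⟩
    have e : ∀ y : Subgroup.centralizer ({x} : Set G), (if p ∣ orderOf y then (0 : ℂ) else fK p k B (x * (y : G))) = 0 := by
      intro y
      split_ifs with hy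
      · rfl
      · have hc : Commute x (y : G) := (Subgroup.mem_centralizer_singleton_iff.mp y.2).symm
        have hy' : ¬ p ∣ orderOf (y : G) := by rwa [Subgroup.orderOf_coe]
        have hordk : orderOf (x ^ k) = orderOf x :=
          Nat.Coprime.orderOf_pow (Nat.Coprime.coprime_dvd_right (orderOf_dvd_natCard x) hk).symm
        have hg : IsPPart p (x ^ k * (y : G)) (x ^ k) :=
          ⟨y, rfl, hc.pow_left k, by rwa [hordk], hy'⟩
        have hh : IsPPart p (x * (y : G)) x := ⟨y, rfl, hc, hx, hy'⟩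
        have h3 := Cfsg.Agent.Lib.Blocks.Heights.block_orthogonality_section hM hg hh hconj hB
        rw [finsum_eq_sum_of_fintype] at h3
        rw [fK]
        refine Eq.trans (Fintype.sum_congr _ _ fun ζ => ?_) h3
        rw [finsum_eq_if, hxy y hy]
        split_ifs
        · rw [char_inv_eq_conj (isCharacter_of_isIrrCharacter ζ.2)]
        · rfl
    rw [Fintype.sum_congr _ _ e]
    simp

open Classical in
/-- The section of `1` contributes the rank of the block. -/
theorem section_one_term (hM : IsPModular p M) (hB : IsPBlock M B) {k : ℕ}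
    (hk1 : k ≡ 1 [MOD Nat.card G / p ^ (Nat.card G).factorization p])
    [Fintype (Subgroup.centralizer ({(1 : G)} : Set G))] :
    (Nat.card (Subgroup.centralizer ({(1 : G)} : Set G)) : ℂ)⁻¹ * ∑ y : Subgroup.centralizer ({(1 : G)} : Set G),
      (if p ∣ orderOf y then 0 else fK p k B ((1 : G) * (y : G))) = blockRank p B := by
  have h3 : Nat.card (Subgroup.centralizer ({(1 : G)} : Set G)) = Nat.card G := by
    rw [Subgroup.centralizer_eq_top_iff_subset.mpr
      (Set.singleton_subset_iff.mpr (one_mem (Subgroup.center G)))]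
    exact Nat.card_congr Subgroup.topEquiv.toEquiv
  rw [card_mul_blockRank hM hB, h3]
  congr 1
  rw [Cfsg.Agent.Lib.Blocks.Induced.sum_eq_sum_subgroup (Subgroup.centralizer ({(1 : G)} : Set G)) _ (fun g hg => by
    exact absurd (Subgroup.mem_centralizer_singleton_iff.mpr (by simp)) hg)]
  refine Fintype.sum_congr _ _ fun y => ?_
  split_ifs with hy
  · symm
    refine Finset.sum_eq_zero fun ψ _ => ?_
    split_ifs
    · rw [pRegularPart_apply, if_neg]
      · rw [zero_mul]
      · intro hc
        exact hc (by rwa [Subgroup.orderOf_coe])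
    · rfl
  · have hy' : ¬ p ∣ orderOf (y : G) := by rwa [Subgroup.orderOf_coe]
    rw [fK]
    refine Fintype.sum_congr _ _ fun ψ => ?_
    split_ifs
    · rw [one_mul, pow_eq_self_of_regular hk1 hy', pRegularPart_apply, if_pos]
      exact hy'
    · rfl

open Classical in
/-- **The number of fixed members of a block is at least its rank.** -/
theorem le_card_fixed (hM : IsPModular p M) (hB : IsPBlock M B) {k : ℕ} (hk : k.Coprime (Nat.card G))
    (hk1 : k ≡ 1 [MOD Nat.card G / p ^ (Nat.card G).factorization p]) :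
    blockRank p B ≤ (Finset.univ.filter fun χ : IrrCharacter G =>
      χ ∈ B ∧ ∀ g : G, (χ : G → ℂ) (g ^ k) = (χ : G → ℂ) g).card := by
  letI : ∀ x : G, Fintype (Subgroup.centralizer ({x} : Set G)) := fun _ => Fintype.ofFinite _
  haveI : ∀ x : G, Finite (IrrCharacter (Subgroup.centralizer ({x} : Set G))) := fun x =>
    Cfsg.Agent.Lib.Char.Ortho.finite_irrCharacter (G := Subgroup.centralizer ({x} : Set G))
  letI : ∀ x : G, Fintype (IrrCharacter (Subgroup.centralizer ({x} : Set G))) := fun _ =>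
    Fintype.ofFinite _
  obtain ⟨X, h1X, hX, hXrep⟩ := Cfsg.Agent.Lib.BlockOne.Count.exists_reps (G := G) p
  have h1 := card_fixed_eq (p := p) (B := B) hk
  rw [sum_eq_sum_sections (p := p) X hX hXrep (isClassFunction_fK k)] at h1
  have hterm : ∀ x : G, ∃ m : ℕ, x ∈ X → (Nat.card (Subgroup.centralizer ({x} : Set G)) : ℂ)⁻¹ *
      ∑ y : Subgroup.centralizer ({x} : Set G), (if p ∣ orderOf y then 0 else fK p k B (x * (y : G))) = m := by
    intro x
    by_cases hx : x ∈ X
    · obtain ⟨m, hm⟩ := exists_section_term (M := M) hM hB hk hk1 (hX x hx)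
      exact ⟨m, fun _ => hm⟩
    · exact ⟨0, fun h => absurd h hx⟩
  choose m hm using hterm
  rw [Finset.sum_congr rfl hm] at h1
  have h2 : (Finset.univ.filter fun χ : IrrCharacter G =>
      χ ∈ B ∧ ∀ g : G, (χ : G → ℂ) (g ^ k) = (χ : G → ℂ) g).card = ∑ x ∈ X, m x := by
    exact_mod_cast h1
  have h3 : (m 1 : ℂ) = blockRank p B := by
    rw [← hm 1 h1X]
    exact section_one_term hM hB hk1
  have h4 : m 1 = blockRank p B := by exact_mod_cast h3
  rw [h2, ← h4]
  exact Finset.single_le_sum (f := m) (fun _ _ => Nat.zero_le _) h1X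

/-- A generator of the power maps fixing the `p'`-roots of unity, for an odd prime. -/
theorem exists_generator (hodd : p ≠ 2) : ∃ k₀ : ℕ, k₀.Coprime (Nat.card G) ∧
    k₀ ≡ 1 [MOD Nat.card G / p ^ (Nat.card G).factorization p] ∧
    ∀ k : ℕ, k.Coprime (Nat.card G) → k ≡ 1 [MOD Nat.card G / p ^ (Nat.card G).factorization p] →
      ∃ j : ℕ, k ≡ k₀ ^ j [MOD Nat.card G] := by
  have hp : p.Prime := Fact.out
  set a := (Nat.card G).factorization p with ha
  set w := Nat.card G / p ^ a with hw
  have hn : Nat.card G = p ^ a * w := (Nat.ordProj_mul_ordCompl_eq_self _ p).symm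
  have hwp : ¬ p ∣ w := Nat.not_dvd_ordCompl hp Nat.card_pos.ne'
  have hcop : Nat.Coprime (p ^ a) w := Nat.Coprime.pow_left _ ((Nat.Prime.coprime_iff_not_dvd hp).mpr hwp)
  haveI : NeZero (p ^ a) := ⟨pow_ne_zero _ hp.ne_zero⟩
  haveI := ZMod.isCyclic_units_of_prime_pow p hp hodd a
  obtain ⟨γ, hγ⟩ := IsCyclic.exists_generator (α := (ZMod (p ^ a))ˣ)
  set r := (γ : ZMod (p ^ a)).val with hr
  set k₀ : ℕ := (Nat.chineseRemainder hcop r 1 : ℕ) with hk₀
  have h1 : k₀ ≡ r [MOD p ^ a] := (Nat.chineseRemainder hcop r 1).2.1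
  have h2 : k₀ ≡ 1 [MOD w] := (Nat.chineseRemainder hcop r 1).2.2
  have h3 : (k₀ : ZMod (p ^ a)) = (γ : ZMod (p ^ a)) := by
    have := (ZMod.natCast_eq_natCast_iff _ _ _).mpr h1
    rw [this, hr, ZMod.natCast_val, ZMod.cast_id', id_eq]
  have hk₀p : k₀.Coprime (p ^ a) := by
    rw [← ZMod.isUnit_iff_coprime, h3]
    exact γ.isUnit
  have hk₀w : k₀.Coprime w := by
    have := h2.gcd_eq
    rw [Nat.gcd_one_left] at this
    exact this
  refine ⟨k₀, ?_, h2, fun k hk hk1 => ?_⟩
  · rw [hn]
    exact Nat.Coprime.mul_right hk₀p hk₀w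
  · have hkp : k.Coprime (p ^ a) := by
      rw [hn] at hk
      exact Nat.Coprime.coprime_mul_right_right hk
    obtain ⟨u, hu⟩ := (ZMod.isUnit_iff_coprime k (p ^ a)).mpr hkp
    have hmem := hγ u
    rw [← mem_powers_iff_mem_zpowers] at hmem
    obtain ⟨j, hj⟩ := hmem
    refine ⟨j, ?_⟩
    rw [hn, ← Nat.modEq_and_modEq_iff_modEq_mul hcop]
    constructor
    · apply (ZMod.natCast_eq_natCast_iff _ _ _).mp
      rw [← hu, ← hj]
      push_cast
      rw [h3]
    · have h4 : k₀ ^ j ≡ 1 ^ j [MOD w] := h2.pow j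
      rw [one_pow] at h4
      exact hk1.trans h4.symm

/-- **The number of `p`-rational members of a block is at least its rank.** -/
theorem main (hodd : p ≠ 2) (hM : IsPModular p M) (hB : IsPBlock M B) :
    blockRank p B ≤ Nat.card {χ : IrrCharacter G // χ ∈ B ∧ ∀ k : ℕ, Nat.Coprime k (Nat.card G) →
      k ≡ 1 [MOD Nat.card G / p ^ (Nat.card G).factorization p] → ∀ g : G, (χ : G → ℂ) (g ^ k) = (χ : G → ℂ) g} := by
  classical
  obtain ⟨k₀, h1, h2, h3⟩ := exists_generator (G := G) (p := p) hodd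
  refine (le_card_fixed hM hB h1 h2).trans ?_
  rw [Nat.card_eq_fintype_card, Fintype.card_subtype]
  refine Finset.card_le_card fun χ hχ => ?_
  rw [Finset.mem_filter] at hχ ⊢
  refine ⟨Finset.mem_univ _, hχ.2.1, fun k hk hk1 g => ?_⟩
  obtain ⟨j, hj⟩ := h3 k hk hk1
  have e : g ^ k = g ^ (k₀ ^ j) := (pow_eq_pow_iff_modEq).mpr (hj.of_dvd (orderOf_dvd_natCard g))
  rw [e]
  clear e hj
  induction j with
  | zero => simp
  | succ j ih =>
    rw [pow_succ, pow_mul, hχ.2.2, ih]

end Rational

end Cfsg.Agent.Lib.IBr.Twist
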